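import Mathlib
import Cfsg.Prelude.Def_LieExceptional
import Cfsg.Agent.Lib.helper2.BN

/-! The Weyl group of a BN-pair is a Coxeter group (via the exchange condition). -/

namespace Cfsg.Agent.Lib.helper29.BNCox

open Cfsg Cfsg.Agent.Lib.helper2

/-! ### Alternating words -/

def alt {α : Type*} (c d : α) : ℕ → List α
  | 0 => []
  | (m+1) => c :: alt d c m

theorem alt_length {α : Type*} (c d : α) (m : ℕ) : (alt c d m).length = m := by
  induction m generalizing c d with
  | zero => rfl
  | succ m ih =>
    have e : alt c d (m+1) = c :: alt d c m := rfl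
    rw [e, List.length_cons, ih]

theorem alt_snoc {α : Type*} (c d : α) (m : ℕ) :
    alt c d (m+1) = alt c d m ++ [if Even m then c else d] := by
  induction m generalizing c d with
  | zero =>
    have h0 : Even 0 := ⟨0, rfl⟩
    simp [alt, h0]
  | succ m ih =>
    have e1 : alt c d (m+1+1) = c :: alt d c (m+1) := rfl
    have e2 : alt c d (m+1) = c :: alt d c m := rfl
    rw [e1, ih d c, e2]
    have : (if Even m then d else c) = (if Even (m+1) then c else d) := by
      by_cases h : Even m
      · have h' : ¬ Even (m+1) := by rw [Nat.even_add_one]; exact not_not.2 h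
        simp [h, h']
      · have h' : Even (m+1) := by rw [Nat.even_add_one]; exact h
        simp [h, h']
    rw [this, List.cons_append]

theorem alt_prod {α W : Type*} [Group W] (f : α → W) (m : ℕ) :
    ∀ c d : α, f c * f c = 1 → f d * f d = 1 →
    ((alt c d m).map f).prod * (((alt d c m).map f).prod)⁻¹ = (f c * f d) ^ m := by
  induction m with
  | zero => intro c d _ _; simp [alt]
  | succ m ih =>
    intro c d hc hd
    have h := ih d c hd hc
    have hdinv : (f d)⁻¹ = f d := inv_eq_of_mul_eq_one_left hd
    have e1 : ((alt c d (m+1)).map f).prod = f c * ((alt d c m).map f).prod := by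
      have e : alt c d (m+1) = c :: alt d c m := rfl
      rw [e, List.map_cons, List.prod_cons]
    have e2 : ((alt d c (m+1)).map f).prod = f d * ((alt c d m).map f).prod := by
      have e : alt d c (m+1) = d :: alt c d m := rfl
      rw [e, List.map_cons, List.prod_cons]
    rw [e1, e2, mul_inv_rev, hdinv]
    calc f c * ((alt d c m).map f).prod * ((((alt c d m).map f).prod)⁻¹ * f d)
        = f c * (((alt d c m).map f).prod * (((alt c d m).map f).prod)⁻¹) * f d := by group
      _ = f c * (f d * f c) ^ m * f d := by rw [h]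
      _ = (f c * f d) ^ m * f c * f d := by rw [mul_pow_mul]
      _ = (f c * f d) ^ (m+1) := by rw [pow_succ, mul_assoc]

variable {G : Type*} [Group G] (P : Cfsg.BNPair G)

/-! ### The Coxeter matrix and the canonical map -/

noncomputable def cm : CoxeterMatrix P.S where
  M := Matrix.of fun s s' => orderOf (BN.σ P s * BN.σ P s')
  isSymm := by
    apply Matrix.IsSymm.ext
    intro i j
    show orderOf (BN.σ P j * BN.σ P i) = orderOf (BN.σ P i * BN.σ P j)
    have : BN.σ P j * BN.σ P i = (BN.σ P i * BN.σ P j)⁻¹ := by
      rw [mul_inv_rev, BN.σ_inv, BN.σ_inv]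
    rw [this, orderOf_inv]
  diagonal := by
    intro s
    show orderOf (BN.σ P s * BN.σ P s) = 1
    rw [BN.σ_mul_self, orderOf_one]
  off_diagonal := by
    intro s s' hne h1
    have h1' : orderOf (BN.σ P s * BN.σ P s') = 1 := h1
    rw [orderOf_eq_one_iff] at h1'
    apply hne
    apply BN.σ_inj P
    have := eq_inv_of_mul_eq_one_left h1'
    rw [BN.σ_inv] at this
    exact this

theorem cm_apply (s s' : P.S) : (cm P) s s' = orderOf (BN.σ P s * BN.σ P s') := rfl

theorem liftable : (cm P).IsLiftable (BN.σ P) := by
  intro i i'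
  show (BN.σ P i * BN.σ P i') ^ orderOf (BN.σ P i * BN.σ P i') = 1
  exact pow_orderOf_eq_one _

noncomputable def φ : (cm P).Group →* BN.W P :=
  (cm P).toCoxeterSystem.lift ⟨BN.σ P, liftable P⟩

noncomputable def sM (a : P.S) : (cm P).Group := (cm P).toCoxeterSystem.simple a

noncomputable def wM (l : List P.S) : (cm P).Group := (cm P).toCoxeterSystem.wordProd l

theorem sM_mul_self (a : P.S) : sM P a * sM P a = 1 :=
  (cm P).toCoxeterSystem.simple_mul_simple_self a

theorem sM_mul_cancel (a : P.S) (w : (cm P).Group) : sM P a * (sM P a * w) = w := by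
  rw [← mul_assoc, sM_mul_self, one_mul]

theorem wM_nil : wM P [] = 1 := (cm P).toCoxeterSystem.wordProd_nil

theorem wM_cons (a : P.S) (l : List P.S) : wM P (a :: l) = sM P a * wM P l :=
  (cm P).toCoxeterSystem.wordProd_cons a l

theorem wM_append (l1 l2 : List P.S) : wM P (l1 ++ l2) = wM P l1 * wM P l2 :=
  (cm P).toCoxeterSystem.wordProd_append l1 l2

theorem wM_reverse (l : List P.S) : wM P l.reverse = (wM P l)⁻¹ :=
  (cm P).toCoxeterSystem.wordProd_reverse l

theorem φ_sM (a : P.S) : φ P (sM P a) = BN.σ P a :=
  (cm P).toCoxeterSystem.lift_apply_simple (liftable P) a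

theorem φ_wM (l : List P.S) : φ P (wM P l) = BN.wp P l := by
  induction l with
  | nil => rw [wM_nil, map_one, BN.wp_nil]
  | cons a t ih => rw [wM_cons, map_mul, BN.wp_cons, ih, φ_sM]

theorem wp_reverse (l : List P.S) : BN.wp P l.reverse = (BN.wp P l)⁻¹ := by
  induction l with
  | nil => simp
  | cons a t ih =>
    rw [List.reverse_cons, BN.wp_append, ih, BN.wp_cons, BN.wp_cons, BN.wp_nil, mul_one,
      mul_inv_rev, BN.σ_inv]

theorem red_nil : BN.Red P ([] : List P.S) := by
  show BN.len P (BN.wp P []) = ([] : List P.S).length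
  rw [BN.wp_nil]; exact (BN.len_eq_zero_iff P).2 rfl

/-! ### Relations up to a given length -/

theorem relC_of {n : ℕ}
    (h : ∀ l : List P.S, l.length ≤ n → BN.wp P l = 1 → wM P l = 1) :
    ∀ u v : List P.S, u.length + v.length ≤ n → BN.wp P u = BN.wp P v → wM P u = wM P v := by
  intro u v hlen he
  have h1 := h (u ++ v.reverse) (by rw [List.length_append, List.length_reverse]; exact hlen)
    (by rw [BN.wp_append, wp_reverse, he, mul_inv_cancel])
  rw [wM_append, wM_reverse] at h1
  exact mul_inv_eq_one.1 h1

theorem reduce {n : ℕ}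
    (hC : ∀ u v : List P.S, u.length + v.length ≤ n → BN.wp P u = BN.wp P v →
      wM P u = wM P v) :
    ∀ u : List P.S, 2 * u.length ≤ n + 2 →
      ∃ u' : List P.S, BN.Red P u' ∧ BN.wp P u' = BN.wp P u ∧ wM P u' = wM P u ∧
        u'.length ≤ u.length ∧ (¬ BN.Red P u → u'.length + 2 ≤ u.length) := by
  intro u
  induction u with
  | nil =>
    intro _
    exact ⟨[], red_nil P, rfl, rfl, le_refl _, fun h => absurd (red_nil P) h⟩
  | cons s t ih =>
    intro hlen
    simp only [List.length_cons] at hlen
    obtain ⟨t', hred, hwp, hwM, hle, hstrict⟩ := ih (by omega)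
    have hred' : BN.len P (BN.wp P t') = t'.length := hred
    by_cases hQ : BN.Q P s (BN.wp P t')
    · obtain ⟨l1, x, l2, e, he⟩ := BN.exchange' P s t' hQ
      have hlt := BN.len_lt_of_Q P hQ
      have hge := BN.len_mul_le P s (BN.σ P s * BN.wp P t')
      rw [BN.σ_mul_cancel] at hge
      have hl : t'.length = (l1 ++ l2).length + 1 := by
        rw [e]; simp only [List.length_append, List.length_cons]; omega
      refine ⟨l1 ++ l2, ?_, ?_, ?_, ?_, ?_⟩
      · show BN.len P (BN.wp P (l1 ++ l2)) = (l1 ++ l2).length
        rw [← he]; omega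
      · rw [← he, BN.wp_cons, hwp]
      · have h1 := hC (s :: (l1 ++ l2)) t' (by simp only [List.length_cons]; omega)
          (by rw [BN.wp_cons, ← he, BN.σ_mul_cancel])
        rw [wM_cons] at h1
        rw [wM_cons, ← hwM, ← h1, sM_mul_cancel]
      · simp only [List.length_cons]; omega
      · intro _; simp only [List.length_cons]; omega
    · have hgt := BN.len_lt_of_not_Q P hQ
      have hle2 := BN.len_mul_le P s (BN.wp P t')
      have hredu : BN.len P (BN.wp P (s :: t')) = (s :: t').length := by
        rw [BN.wp_cons]; simp only [List.length_cons]; omega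
      refine ⟨s :: t', hredu, ?_, ?_, ?_, ?_⟩
      · rw [BN.wp_cons, BN.wp_cons, hwp]
      · rw [wM_cons, wM_cons, hwM]
      · simp only [List.length_cons]; omega
      · intro hnr
        simp only [List.length_cons]
        by_cases hrt : BN.Red P t
        · exfalso
          apply hnr
          have hrt' : BN.len P (BN.wp P t) = t.length := hrt
          show BN.len P (BN.wp P (s :: t)) = (s :: t).length
          rw [BN.wp_cons, ← hwp]
          simp only [List.length_cons]
          rw [← hwp] at hrt'
          omega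
        · have := hstrict hrt
          omega

theorem step {n : ℕ}
    (hC : ∀ u v : List P.S, u.length + v.length ≤ n → BN.wp P u = BN.wp P v →
      wM P u = wM P v)
    (a : P.S) (X v : List P.S) (hlen : (a :: X).length = v.length)
    (hn : 2 * v.length ≤ n + 2)
    (hwp : BN.wp P (a :: X) = BN.wp P v) (hred : BN.Red P (a :: X)) :
    wM P (a :: X) = wM P v ∨
      ∃ Y b, v = Y ++ [b] ∧ BN.wp P X = BN.wp P Y ∧ wM P X = wM P Y := by
  have hQ : BN.Q P a (BN.wp P v) := by rw [← hwp]; exact BN.Red.Q_head P hred
  obtain ⟨l1, x, l2, e, he⟩ := BN.exchange P a v hQ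
  subst e
  have hX : BN.wp P X = BN.wp P (l1 ++ l2) := by
    have h1 : BN.wp P X = BN.σ P a * BN.wp P (l1 ++ x :: l2) := by
      rw [← hwp, BN.wp_cons, BN.σ_mul_cancel]
    rw [h1, BN.wp_append, BN.wp_cons, BN.wp_append, ← mul_assoc, he, mul_assoc,
      BN.σ_mul_cancel]
  rcases l2 with _ | ⟨y, l2'⟩
  · right
    simp only [List.length_cons, List.length_append, List.length_nil] at hlen hn
    have hX' : BN.wp P X = BN.wp P l1 := by simpa using hX
    exact ⟨l1, x, rfl, hX', hC X l1 (by omega) hX'⟩
  · left
    simp only [List.length_cons, List.length_append] at hlen hn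
    have r1 := hC (a :: l1) (l1 ++ [x])
      (by simp only [List.length_cons, List.length_append, List.length_nil]; omega)
      (by rw [BN.wp_cons, BN.wp_append, BN.wp_cons, BN.wp_nil, mul_one, he])
    have r2 := hC X (l1 ++ y :: l2')
      (by simp only [List.length_append, List.length_cons]; omega) hX
    rw [wM_cons, wM_append, wM_cons, wM_nil, mul_one] at r1
    calc wM P (a :: X) = sM P a * wM P X := wM_cons P a X
      _ = sM P a * (wM P l1 * wM P (y :: l2')) := by rw [r2, wM_append]
      _ = (sM P a * wM P l1) * wM P (y :: l2') := by rw [mul_assoc]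
      _ = (wM P l1 * sM P x) * wM P (y :: l2') := by rw [r1]
      _ = wM P l1 * (sM P x * wM P (y :: l2')) := by rw [mul_assoc]
      _ = wM P (l1 ++ x :: y :: l2') := by rw [wM_append, wM_cons P x (y :: l2')]

theorem even_add_two_iff (m : ℕ) : Even (m + 2) ↔ Even m := by
  constructor
  · rintro ⟨r, hr⟩; exact ⟨r - 1, by omega⟩
  · rintro ⟨r, hr⟩; exact ⟨r + 1, by omega⟩

theorem chain {n : ℕ}
    (hC : ∀ u v : List P.S, u.length + v.length ≤ n → BN.wp P u = BN.wp P v →
      wM P u = wM P v)
    (k : ℕ) (hk : 2 * k ≤ n + 2) (c d : P.S) :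
    ∀ (A : List P.S) (m : ℕ), A.length + m + 1 = k →
      BN.wp P (A ++ alt c d (m+1)) = BN.wp P (A ++ alt c d (m+2)).tail →
      BN.Red P (A ++ alt c d (m+1)) →
      wM P (A ++ alt c d (m+1)) = wM P (A ++ alt c d (m+2)).tail := by
  intro A
  induction A with
  | nil =>
    intro m _ hwp _
    have ht : (([] : List P.S) ++ alt c d (m+2)).tail = alt d c (m+1) := rfl
    rw [ht, List.nil_append] at hwp ⊢
    have h1 := alt_prod (BN.σ P) (m+1) c d (BN.σ_mul_self P c) (BN.σ_mul_self P d)
    have h2 : (BN.σ P c * BN.σ P d) ^ (m+1) = 1 := by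
      rw [← h1]
      have h' : ((alt c d (m+1)).map (BN.σ P)).prod = ((alt d c (m+1)).map (BN.σ P)).prod :=
        hwp
      rw [h', mul_inv_cancel]
    have h0 : (sM P c * sM P d) ^ orderOf (BN.σ P c * BN.σ P d) = 1 :=
      (cm P).toCoxeterSystem.simple_mul_simple_pow c d
    have h4 : (sM P c * sM P d) ^ (m+1) = 1 := by
      obtain ⟨q, hq⟩ := orderOf_dvd_of_pow_eq_one h2
      rw [hq, pow_mul, h0, one_pow]
    have h5 := alt_prod (sM P) (m+1) c d (sM_mul_self P c) (sM_mul_self P d)
    rw [h4] at h5
    exact mul_inv_eq_one.1 h5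
  | cons a' A' ih =>
    intro m hm hwp hred
    simp only [List.length_cons] at hm
    have hv : ((a' :: A') ++ alt c d (m+2)).tail = A' ++ alt c d (m+2) := rfl
    rw [hv] at hwp ⊢
    obtain ⟨a'', X', hvX⟩ : ∃ a'' X', A' ++ alt c d (m+2) = a'' :: X' := by
      cases hA : A' ++ alt c d (m+2) with
      | nil =>
        exfalso
        have := congrArg List.length hA
        simp only [List.length_append, alt_length, List.length_nil] at this
        omega
      | cons a'' X' => exact ⟨a'', X', rfl⟩
    have hlu : ((a' :: A') ++ alt c d (m+1)).length = k := by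
      simp only [List.length_append, List.length_cons, alt_length]; omega
    have hlv : (A' ++ alt c d (m+2)).length = k := by
      simp only [List.length_append, alt_length]; omega
    have hredv : BN.Red P (a'' :: X') := by
      rw [← hvX]
      show BN.len P (BN.wp P (A' ++ alt c d (m+2))) = (A' ++ alt c d (m+2)).length
      rw [← hwp, hlv, ← hlu]; exact hred
    rcases step P hC a'' X' ((a' :: A') ++ alt c d (m+1)) (by rw [← hvX, hlv, hlu])
      (by rw [hlu]; exact hk) (by rw [← hvX]; exact hwp.symm) hredv with
      h | ⟨Y, b', hY, hwpXY, hwMXY⟩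
    · rw [hvX]; exact h.symm
    · have hsn : (a' :: A') ++ alt c d (m+1)
          = ((a' :: A') ++ alt c d m) ++ [if Even m then c else d] := by
        rw [alt_snoc, List.append_assoc]
      obtain ⟨_, hb1⟩ := List.append_inj' (hsn.symm.trans hY) rfl
      have hb' : b' = if Even m then c else d := by
        have := List.head_eq_of_cons_eq hb1
        exact this.symm
      have hnext : (A' ++ alt c d (m+3)).tail = X' ++ [b'] := by
        have h3 : alt c d (m+3) = alt c d (m+2) ++ [if Even (m+2) then c else d] :=
          alt_snoc c d (m+2)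
        have he : (if Even (m+2) then c else d) = b' := by
          rw [hb']
          by_cases h : Even m
          · have h' : Even (m+2) := (even_add_two_iff m).2 h
            simp [h, h']
          · have h' : ¬ Even (m+2) := fun h2 => h ((even_add_two_iff m).1 h2)
            simp [h, h']
        rw [h3, ← List.append_assoc, hvX, he]
        rfl
      have key : BN.wp P (A' ++ alt c d (m+2)) = BN.wp P (A' ++ alt c d (m+3)).tail →
          BN.Red P (A' ++ alt c d (m+2)) →
          wM P (A' ++ alt c d (m+2)) = wM P (A' ++ alt c d (m+3)).tail :=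
        ih (m+1) (by omega)
      have key' := key
        (by rw [hnext, ← hwp, hY, BN.wp_append, BN.wp_append, hwpXY])
        (by rw [hvX]; exact hredv)
      rw [key', hnext, hY, wM_append, wM_append, hwMXY]

/-! ### The main theorem -/

theorem main : ∀ n : ℕ, ∀ l : List P.S, l.length ≤ n → BN.wp P l = 1 → wM P l = 1 := by
  intro n
  induction n with
  | zero =>
    intro l hl _
    have : l = [] := List.length_eq_zero_iff.1 (Nat.le_zero.1 hl)
    rw [this]; exact wM_nil P
  | succ n ih =>
    intro l hl hwp
    have hC := relC_of P ih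
    by_cases hln : l.length ≤ n
    · exact ih l hln hwp
    have hlen : l.length = n + 1 := by omega
    obtain ⟨k, hk1, hk2⟩ : ∃ k : ℕ, 2 * k ≤ n + 2 ∧ n + 1 ≤ 2 * k :=
      ⟨(n + 2) / 2, by omega, by omega⟩
    obtain ⟨u, w, hl_eq, hul⟩ : ∃ u w : List P.S, l = u ++ w ∧ u.length = k :=
      ⟨l.take k, l.drop k, (List.take_append_drop k l).symm, by
        rw [List.length_take]; omega⟩
    subst hl_eq
    rw [List.length_append] at hlen
    rw [BN.wp_append] at hwp
    have hwp' : BN.wp P u = BN.wp P w.reverse := by
      rw [wp_reverse]; exact eq_inv_of_mul_eq_one_left hwp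
    have hvl : w.reverse.length = w.length := List.length_reverse
    suffices hs : wM P u = wM P w.reverse by
      rw [wM_append, hs, wM_reverse, inv_mul_cancel]
    generalize w.reverse = v at hwp' hvl ⊢
    by_cases hred : BN.Red P u
    · have hr : BN.len P (BN.wp P u) = u.length := hred
      have hv1 := BN.len_le P v
      rw [← hwp'] at hv1
      have hvk : v.length = k := by omega
      rcases u with _ | ⟨a, X⟩
      · simp only [List.length_nil] at hul; omega
      rcases step P hC a X v (by rw [hul, hvk]) (by rw [hvk]; exact hk1) hwp' hred with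
        h | ⟨Y, b, hY, hwpXY, hwMXY⟩
      · exact h
      · obtain ⟨A₀, c, hAc⟩ : ∃ A₀ c, a :: X = A₀ ++ [c] :=
          ⟨(a :: X).dropLast, (a :: X).getLast (List.cons_ne_nil _ _),
            (List.dropLast_concat_getLast (List.cons_ne_nil _ _)).symm⟩
        have h1 : A₀ ++ alt c b (0+1) = a :: X := by rw [hAc]; rfl
        have h2 : (A₀ ++ alt c b (0+2)).tail = X ++ [b] := by
          have : A₀ ++ alt c b (0+2) = (A₀ ++ [c]) ++ [b] := by
            rw [List.append_assoc]; rfl
          rw [this, ← hAc]; rfl
        have hch := chain P hC k hk1 c b A₀ 0 (by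
            have := congrArg List.length hAc
            simp only [List.length_cons, List.length_append, List.length_nil] at this hul
            omega)
        rw [h1, h2] at hch
        have h3 := hch
          (by rw [BN.wp_append, hwpXY, ← BN.wp_append, ← hY]; exact hwp') hred
        rw [h3, wM_append, hwMXY, ← wM_append, ← hY]
    · obtain ⟨u', hred', hwpu', hwMu', hle', hstrict⟩ :=
        reduce P hC u (by rw [hul]; exact hk1)
      have := hstrict hred
      have h1 := hC u' v (by omega) (by rw [hwpu']; exact hwp')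
      rw [← hwMu']; exact h1

/-! ### The Coxeter system -/

theorem φ_inj : Function.Injective (φ P) := by
  rw [injective_iff_map_eq_one]
  intro x hx
  obtain ⟨l, rfl⟩ := (cm P).toCoxeterSystem.wordProd_surjective x
  have h1 : BN.wp P l = 1 := by rw [← φ_wM]; exact hx
  exact main P l.length l le_rfl h1

theorem φ_surj : Function.Surjective (φ P) := by
  intro w
  obtain ⟨l, hl⟩ := BN.exists_word P w
  exact ⟨wM P l, by rw [φ_wM, hl]⟩

noncomputable def φE : (cm P).Group ≃* BN.W P :=
  MulEquiv.ofBijective (φ P) ⟨φ_inj P, φ_surj P⟩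

theorem φE_apply (x : (cm P).Group) : φE P x = φ P x := rfl

noncomputable def csW : CoxeterSystem (cm P) (BN.W P) := ⟨(φE P).symm⟩

theorem csW_simple (s : P.S) : (csW P).simple s = BN.σ P s := by
  show (φE P).symm.symm (sM P s) = BN.σ P s
  rw [MulEquiv.symm_symm, φE_apply]
  exact φ_sM P s

end Cfsg.Agent.Lib.helper29.BNCox
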