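import Mathlib
import Cfsg.Agent.Lib.helper24.CharClifford
import Cfsg.Agent.Lib.helper24.CharMisc
import Cfsg.Agent.Lib.helper23.CharSchur

set_option autoImplicit false

namespace Cfsg.Agent.Lib.helper29.FT

open scoped ComplexConjugate
open Cfsg.Agent.Lib.helper24

universe u v

section Avg

variable {K : Type u} {H : Type v} [Group K] [Group H] [Fintype H] (ι : H →* K)

/-- `θ` minus its average over the right translates by the image of `ι`. -/
noncomputable def subAvg (θ : K → ℂ) : K → ℂ :=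
  fun g => θ g - (Nat.card H : ℂ)⁻¹ * ∑ h : H, θ (g * ι h)

theorem subAvg_apply (θ : K → ℂ) (g : K) :
    subAvg ι θ g = θ g - (Nat.card H : ℂ)⁻¹ * ∑ h : H, θ (g * ι h) := rfl

theorem subAvg_zero : subAvg ι (0 : K → ℂ) = 0 := by
  funext g
  simp [subAvg]

theorem subAvg_add (θ₁ θ₂ : K → ℂ) : subAvg ι (θ₁ + θ₂) = subAvg ι θ₁ + subAvg ι θ₂ := by
  funext g
  simp only [subAvg, Pi.add_apply, Finset.sum_add_distrib]
  ring

theorem card_ne_zero_c : (Nat.card H : ℂ) ≠ 0 := Nat.cast_ne_zero.mpr Nat.card_pos.ne'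

theorem avg_dich [Fintype K] (hn : ∀ g : K, ∃ e : H ≃ H, ∀ h, ι (e h) * g = g * ι h)
    (φ : K → ℂ) (hφ : Cfsg.IsIrrCharacter K φ) :
    (∀ g, ∑ h : H, φ (g * ι h) = (Nat.card H : ℂ) * φ g) ∨ (∀ g, ∑ h : H, φ (g * ι h) = 0) := by
  obtain ⟨n, σ, hirr, rfl⟩ := hφ
  haveI := hirr
  obtain ⟨E, hE⟩ : ∃ E : Module.End ℂ (Fin n → ℂ), E = ∑ h : H, σ (ι h) := ⟨_, rfl⟩
  have hcomm : ∀ g, E * σ g = σ g * E := by
    intro g
    obtain ⟨e, he⟩ := hn g
    have h1 : ∑ h : H, σ g * σ (ι h) = ∑ h : H, σ (ι h) * σ g :=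
      Fintype.sum_equiv e _ _ (fun h => by rw [← map_mul, ← map_mul, he h])
    rw [hE, Finset.sum_mul, Finset.mul_sum, h1]
  obtain ⟨c, hc⟩ := Cfsg.Agent.Lib.helper23.irr_commuting_scalar n σ E hcomm
  have hid : (LinearMap.id : Module.End ℂ (Fin n → ℂ)) = 1 := rfl
  rw [hid] at hc
  have hEE : E * E = (Nat.card H : ℂ) • E := by
    have h1 : ∀ a : H, σ (ι a) * E = E := by
      intro a
      rw [hE, Finset.mul_sum]
      refine Fintype.sum_equiv (Equiv.mulLeft a) _ _ (fun b => ?_)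
      show σ (ι a) * σ (ι b) = σ (ι (a * b))
      rw [← map_mul, ← map_mul]
    have h2 : E * E = ∑ a : H, σ (ι a) * E := by
      nth_rewrite 1 [hE]
      rw [Finset.sum_mul]
    rw [h2, Finset.sum_congr rfl (fun a _ => h1 a), Finset.sum_const, Finset.card_univ,
      Nat.card_eq_fintype_card]
    exact (Nat.cast_smul_eq_nsmul ℂ _ _).symm
  have h3 : E * E = c • E := by
    nth_rewrite 1 [hc]
    rw [smul_mul_assoc, one_mul]
  have h2 : (c - (Nat.card H : ℂ)) • E = 0 := by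
    have h4 : (c - (Nat.card H : ℂ)) • E = c • E - (Nat.card H : ℂ) • E := by
      ext v i
      simp [sub_smul, sub_mul]
    rw [h4, ← h3, hEE, sub_self]
  have hsum : ∀ g, ∑ h : H, σ.character (g * ι h) = LinearMap.trace ℂ _ (σ g * E) := by
    intro g
    rw [hE, Finset.mul_sum, map_sum]
    refine Finset.sum_congr rfl (fun a _ => ?_)
    rw [← map_mul]
    rfl
  rcases smul_eq_zero.mp h2 with h | h
  · left
    intro g
    have hcc : c = Nat.card H := sub_eq_zero.mp h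
    rw [hsum g, hc, mul_smul_comm, mul_one, map_smul, smul_eq_mul, hcc]
    rfl
  · right
    intro g
    rw [hsum g, h, mul_zero, map_zero]

theorem subAvg_irr [Fintype K] (hn : ∀ g : K, ∃ e : H ≃ H, ∀ h, ι (e h) * g = g * ι h)
    (φ : K → ℂ) (hφ : Cfsg.IsIrrCharacter K φ) : Cfsg.IsCharacter K (subAvg ι φ) := by
  rcases avg_dich ι hn φ hφ with h | h
  · have : subAvg ι φ = 0 := by
      funext g
      rw [subAvg_apply, h g, ← mul_assoc, inv_mul_cancel₀ card_ne_zero_c, one_mul, sub_self]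
      rfl
    rw [this]
    exact isCharacter_zero
  · have : subAvg ι φ = φ := by
      funext g
      rw [subAvg_apply, h g, mul_zero, sub_zero]
    rw [this]
    exact isCharacter_of_isIrrCharacter hφ

theorem subAvg_char [Fintype K] (hn : ∀ g : K, ∃ e : H ≃ H, ∀ h, ι (e h) * g = g * ι h)
    (θ : K → ℂ) (hθ : Cfsg.IsCharacter K θ) : Cfsg.IsCharacter K (subAvg ι θ) := by
  obtain ⟨l, rfl⟩ := isCharacter_iff_exists_list.mp hθ
  clear hθ
  induction l with
  | nil =>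
    simp only [List.map_nil, List.sum_nil]
    rw [subAvg_zero]
    exact isCharacter_zero
  | cons φ l ih =>
    rw [List.map_cons, List.sum_cons, subAvg_add]
    exact isCharacter_add (subAvg_irr ι hn φ.1 φ.2) ih

theorem avg_mul_right (θ : K → ℂ) (g : K) (h₀ : H) :
    ∑ h : H, θ (g * ι h₀ * ι h) = ∑ h : H, θ (g * ι h) :=
  Fintype.sum_equiv (Equiv.mulLeft h₀) _ _ (fun h => by
    show θ (g * ι h₀ * ι h) = θ (g * ι (h₀ * h))
    rw [map_mul, mul_assoc])

theorem subAvg_sum (θ : K → ℂ) (g : K) : ∑ h : H, subAvg ι θ (g * ι h) = 0 := by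
  simp only [subAvg_apply]
  rw [Finset.sum_sub_distrib]
  have h1 : ∀ h₀ : H, (Nat.card H : ℂ)⁻¹ * ∑ h : H, θ (g * ι h₀ * ι h)
      = (Nat.card H : ℂ)⁻¹ * ∑ h : H, θ (g * ι h) := fun h₀ => by rw [avg_mul_right]
  rw [Finset.sum_congr rfl (fun h₀ _ => h1 h₀), Finset.sum_const, Finset.card_univ,
    ← Nat.card_eq_fintype_card, nsmul_eq_mul, ← mul_assoc, mul_inv_cancel₀ card_ne_zero_c,
    one_mul, sub_self]

theorem subAvg_orth [Fintype K] (θ : K → ℂ) :
    ∑ g : K, (θ g - subAvg ι θ g) * conj (subAvg ι θ g) = 0 := by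
  have ha : ∀ (g : K) (h₀ : H), θ (g * ι h₀) - subAvg ι θ (g * ι h₀) = θ g - subAvg ι θ g := by
    intro g h₀
    simp only [subAvg_apply, sub_sub_cancel]
    rw [avg_mul_right]
  have h1 : ∀ h : H, ∑ g : K, (θ g - subAvg ι θ g) * conj (subAvg ι θ (g * ι h))
      = ∑ g : K, (θ g - subAvg ι θ g) * conj (subAvg ι θ g) := by
    intro h
    have h2 := Fintype.sum_equiv (Equiv.mulRight (ι h))
      (fun g : K => (θ (g * ι h) - subAvg ι θ (g * ι h)) * conj (subAvg ι θ (g * ι h)))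
      (fun g : K => (θ g - subAvg ι θ g) * conj (subAvg ι θ g)) (fun g => rfl)
    rw [← h2]
    exact Finset.sum_congr rfl (fun g _ => by rw [ha g h])
  have h2 : ∑ h : H, ∑ g : K, (θ g - subAvg ι θ g) * conj (subAvg ι θ (g * ι h)) = 0 := by
    rw [Finset.sum_comm]
    refine Finset.sum_eq_zero (fun g _ => ?_)
    rw [← Finset.mul_sum, ← map_sum, subAvg_sum, map_zero, mul_zero]
  rw [Finset.sum_congr rfl (fun h _ => h1 h), Finset.sum_const, Finset.card_univ,
    nsmul_eq_mul] at h2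
  rcases mul_eq_zero.mp h2 with h | h
  · exact absurd h (Nat.cast_ne_zero.mpr Fintype.card_ne_zero)
  · exact h

theorem subAvg_pyth [Fintype K] (θ : K → ℂ) :
    ∑ g : K, Complex.normSq (θ g) = ∑ g : K, Complex.normSq (θ g - subAvg ι θ g)
      + ∑ g : K, Complex.normSq (subAvg ι θ g) := by
  have h1 : ∀ g : K, Complex.normSq (θ g) = Complex.normSq (θ g - subAvg ι θ g)
      + Complex.normSq (subAvg ι θ g)
      + 2 * ((θ g - subAvg ι θ g) * conj (subAvg ι θ g)).re := by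
    intro g
    rw [← Complex.normSq_add, sub_add_cancel]
  rw [Finset.sum_congr rfl (fun g _ => h1 g), Finset.sum_add_distrib, Finset.sum_add_distrib,
    ← Finset.mul_sum, ← Complex.re_sum, subAvg_orth, Complex.zero_re, mul_zero, add_zero]

theorem subAvg_norm [Fintype K] (hn : ∀ g : K, ∃ e : H ≃ H, ∀ h, ι (e h) * g = g * ι h)
    (θ : K → ℂ) (hθ : Cfsg.IsCharacter K θ) (h1 : subAvg ι θ 1 ≠ 0) :
    (Nat.card K : ℝ) ≤ ∑ g : K, Complex.normSq (subAvg ι θ g) := by
  obtain ⟨m, hm, hmm⟩ := isCharacter_inner_self_pos (subAvg_char ι hn θ hθ) h1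
  have hK : (Nat.card K : ℂ) ≠ 0 := Nat.cast_ne_zero.mpr Nat.card_pos.ne'
  have h2 : ((∑ g : K, Complex.normSq (subAvg ι θ g) : ℝ) : ℂ) = (Nat.card K : ℂ) * m := by
    unfold Cfsg.classInner at hmm
    rw [Complex.ofReal_sum]
    have h3 : ∑ g : K, subAvg ι θ g * conj (subAvg ι θ g)
        = ∑ g : K, ((Complex.normSq (subAvg ι θ g) : ℝ) : ℂ) :=
      Finset.sum_congr rfl (fun g _ => Complex.mul_conj _)
    rw [← h3, ← hmm, ← mul_assoc, mul_inv_cancel₀ hK, one_mul]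
  have h4 : (∑ g : K, Complex.normSq (subAvg ι θ g) : ℝ) = (Nat.card K : ℝ) * m := by
    exact_mod_cast h2
  rw [h4]
  have h5 : (1 : ℝ) ≤ m := by exact_mod_cast hm
  have hK' : (0 : ℝ) ≤ Nat.card K := Nat.cast_nonneg _
  nlinarith

end Avg

end Cfsg.Agent.Lib.helper29.FT
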