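import Mathlib
import Cfsg.Agent.Lib.helper29.FTAvg

set_option autoImplicit false

namespace Cfsg.Agent.Lib.helper29.FT

open scoped ComplexConjugate
open Cfsg.Agent.Lib.helper24

universe u v

open Classical in
/-- Real-valued indicator of a proposition. -/
noncomputable def ind (p : Prop) : ℝ := if p then 1 else 0

theorem ind_true {p : Prop} (h : p) : ind p = 1 := by
  unfold ind
  simp [h]

theorem ind_false {p : Prop} (h : ¬p) : ind p = 0 := by
  unfold ind
  simp [h]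

theorem ind_nonneg (p : Prop) : 0 ≤ ind p := by
  by_cases h : p
  · rw [ind_true h]; exact zero_le_one
  · rw [ind_false h]

theorem ind_mono {p q : Prop} (h : p → q) : ind p ≤ ind q := by
  by_cases hp : p
  · rw [ind_true hp, ind_true (h hp)]
  · rw [ind_false hp]; exact ind_nonneg q

variable {G : Type u} [Group G] [Fintype G]

theorem sum_ind_sub (K : Subgroup G) [Fintype K] (f : G → ℝ) :
    ∑ g : G, ind (g ∈ K) * f g = ∑ g : K, f g := by
  classical
  have h1 : ∑ g : G, ind (g ∈ K) * f g = ∑ g ∈ Finset.univ.filter (· ∈ K), f g := by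
    rw [Finset.sum_filter]
    refine Finset.sum_congr rfl (fun g _ => ?_)
    by_cases h : g ∈ K
    · rw [ind_true h, one_mul, if_pos h]
    · rw [ind_false h, zero_mul, if_neg h]
  rw [h1]
  exact Finset.sum_subtype _ (by simp) f

theorem sum_ind_card (K : Subgroup G) [Fintype K] :
    ∑ g : G, ind (g ∈ K) = (Fintype.card K : ℝ) := by
  have h := sum_ind_sub K (fun _ => (1 : ℝ))
  simp only [mul_one, Finset.sum_const, Finset.card_univ, nsmul_eq_mul] at h
  exact h

theorem sum_inj_le {α : Type*} [Fintype α] (j : α → G) (hj : Function.Injective j)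
    (f : G → ℝ) (hf : ∀ g, 0 ≤ f g) : ∑ p : α, f (j p) ≤ ∑ g : G, f g := by
  classical
  rw [← Finset.sum_image (s := Finset.univ) (g := j) (f := f) hj.injOn]
  exact Finset.sum_le_sum_of_subset_of_nonneg (Finset.subset_univ _) (fun g _ _ => hf g)

theorem ti_count (P : G → Prop) (F : G → ℝ) (hF : ∀ g, 0 ≤ F g)
    (hcl : ∀ g x : G, F (x * g * x⁻¹) = F g)
    (c : G → ℝ) (hc : ∀ g, ∑ x : G, ind (P (x⁻¹ * g * x)) ≤ c g) :
    (Nat.card G : ℝ) * ∑ g : G, ind (P g) * F g ≤ ∑ g : G, c g * F g := by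
  have h1 : ∀ x : G, ∑ g : G, ind (P (x⁻¹ * g * x)) * F g = ∑ g : G, ind (P g) * F g := by
    intro x
    refine Fintype.sum_equiv (MulAut.conj x⁻¹).toEquiv _ _ (fun g => ?_)
    show ind (P (x⁻¹ * g * x)) * F g = ind (P (x⁻¹ * g * x⁻¹⁻¹)) * F (x⁻¹ * g * x⁻¹⁻¹)
    rw [hcl g x⁻¹, inv_inv]
  have h2 : ∑ x : G, ∑ g : G, ind (P (x⁻¹ * g * x)) * F g
      = (Nat.card G : ℝ) * ∑ g : G, ind (P g) * F g := by
    rw [Finset.sum_congr rfl (fun x _ => h1 x), Finset.sum_const, Finset.card_univ,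
      nsmul_eq_mul, Nat.card_eq_fintype_card]
  rw [← h2, Finset.sum_comm]
  refine Finset.sum_le_sum (fun g _ => ?_)
  rw [← Finset.sum_mul]
  exact mul_le_mul_of_nonneg_right (hc g) (hF g)

/-- `g` commutes with a nontrivial element of `H`. -/
def Mp (H : Subgroup G) (g : G) : Prop := ∃ h ∈ H, h ≠ 1 ∧ g * h = h * g

omit [Fintype G] in
theorem meet_ne_bot (H : Subgroup G) (g a : G) (hm : Mp H (a⁻¹ * g * a)) :
    Subgroup.centralizer ({g} : Set G) ⊓ H.map (MulAut.conj a).toMonoidHom ≠ ⊥ := by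
  obtain ⟨h, hh, h1, hc⟩ := hm
  intro hbot
  have hmem : a * h * a⁻¹ ∈
      Subgroup.centralizer ({g} : Set G) ⊓ H.map (MulAut.conj a).toMonoidHom := by
    refine Subgroup.mem_inf.mpr ⟨?_, ?_⟩
    · rw [Subgroup.mem_centralizer_iff]
      intro x hx
      rw [Set.mem_singleton_iff.mp hx]
      calc g * (a * h * a⁻¹) = a * (a⁻¹ * g * a * h) * a⁻¹ := by group
        _ = a * (h * (a⁻¹ * g * a)) * a⁻¹ := by rw [hc]
        _ = a * h * a⁻¹ * g := by group
    · exact Subgroup.mem_map.mpr ⟨h, hh, rfl⟩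
  rw [hbot, Subgroup.mem_bot] at hmem
  apply h1
  calc h = a⁻¹ * (a * h * a⁻¹) * a := by group
    _ = 1 := by rw [hmem]; group

omit [Fintype G] in
theorem conj_mem_norm (H : Subgroup G)
    (hone : ∀ g : G, g ∉ Subgroup.center G → ∀ a b : G,
      Subgroup.centralizer ({g} : Set G) ⊓ H.map (MulAut.conj a).toMonoidHom ≠ ⊥ →
      Subgroup.centralizer ({g} : Set G) ⊓ H.map (MulAut.conj b).toMonoidHom ≠ ⊥ →
      H.map (MulAut.conj a).toMonoidHom = H.map (MulAut.conj b).toMonoidHom)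
    (g : G) (hg : g ∉ Subgroup.center G) (a y : G) (h1 : Mp H (a⁻¹ * g * a))
    (h2 : Mp H ((a * y)⁻¹ * g * (a * y))) : y ∈ Subgroup.normalizer (H : Set G) := by
  have heq := hone g hg a (a * y) (meet_ne_bot H g a h1) (meet_ne_bot H g (a * y) h2)
  rw [Subgroup.mem_normalizer_iff]
  intro h
  constructor
  · intro hh
    have hm : (a * y) * h * (a * y)⁻¹ ∈ H.map (MulAut.conj a).toMonoidHom := by
      rw [heq]; exact Subgroup.mem_map.mpr ⟨h, hh, rfl⟩
    obtain ⟨h', hh', he⟩ := Subgroup.mem_map.mp hm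
    have he' : a * h' * a⁻¹ = (a * y) * h * (a * y)⁻¹ := he
    have h3 : y * h * y⁻¹ = h' := by
      calc y * h * y⁻¹ = a⁻¹ * ((a * y) * h * (a * y)⁻¹) * a := by group
        _ = a⁻¹ * (a * h' * a⁻¹) * a := by rw [he']
        _ = h' := by group
    rw [h3]; exact hh'
  · intro hh
    have hm : a * (y * h * y⁻¹) * a⁻¹ ∈ H.map (MulAut.conj (a * y)).toMonoidHom := by
      rw [← heq]; exact Subgroup.mem_map.mpr ⟨_, hh, rfl⟩
    obtain ⟨h'', hh'', he⟩ := Subgroup.mem_map.mp hm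
    have he' : (a * y) * h'' * (a * y)⁻¹ = a * (y * h * y⁻¹) * a⁻¹ := he
    have h3 : h = h'' := by
      calc h = (a * y)⁻¹ * (a * (y * h * y⁻¹) * a⁻¹) * (a * y) := by group
        _ = (a * y)⁻¹ * ((a * y) * h'' * (a * y)⁻¹) * (a * y) := by rw [he']
        _ = h'' := by group
    rw [h3]; exact hh''

theorem count_le (H : Subgroup G)
    (hone : ∀ g : G, g ∉ Subgroup.center G → ∀ a b : G,
      Subgroup.centralizer ({g} : Set G) ⊓ H.map (MulAut.conj a).toMonoidHom ≠ ⊥ →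
      Subgroup.centralizer ({g} : Set G) ⊓ H.map (MulAut.conj b).toMonoidHom ≠ ⊥ →
      H.map (MulAut.conj a).toMonoidHom = H.map (MulAut.conj b).toMonoidHom)
    (g : G) (hg : g ∉ Subgroup.center G) :
    ∑ x : G, ind (Mp H (x⁻¹ * g * x) ∧ x⁻¹ * g * x ∉ Subgroup.center G)
      ≤ ∑ y : G, ind (y ∈ Subgroup.normalizer (H : Set G)) := by
  by_cases hex : ∃ x₀ : G, Mp H (x₀⁻¹ * g * x₀)
  · obtain ⟨x₀, hx₀⟩ := hex
    have h1 : ∑ y : G, ind (Mp H ((x₀ * y)⁻¹ * g * (x₀ * y)) ∧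
          (x₀ * y)⁻¹ * g * (x₀ * y) ∉ Subgroup.center G)
        = ∑ x : G, ind (Mp H (x⁻¹ * g * x) ∧ x⁻¹ * g * x ∉ Subgroup.center G) :=
      Fintype.sum_equiv (Equiv.mulLeft x₀) _ _ (fun y => rfl)
    rw [← h1]
    exact Finset.sum_le_sum (fun y _ => ind_mono (fun hy =>
      conj_mem_norm H hone g hg x₀ y hx₀ hy.1))
  · have h0 : ∀ x : G, ind (Mp H (x⁻¹ * g * x) ∧ x⁻¹ * g * x ∉ Subgroup.center G) = 0 :=
      fun x => ind_false (fun h => hex ⟨x, h.1⟩)
    rw [Finset.sum_congr rfl (fun x _ => h0 x), Finset.sum_const_zero]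
    exact Finset.sum_nonneg (fun y _ => ind_nonneg _)

omit [Fintype G] in
theorem mp_mem_norm (H : Subgroup G)
    (hone : ∀ g : G, g ∉ Subgroup.center G → ∀ a b : G,
      Subgroup.centralizer ({g} : Set G) ⊓ H.map (MulAut.conj a).toMonoidHom ≠ ⊥ →
      Subgroup.centralizer ({g} : Set G) ⊓ H.map (MulAut.conj b).toMonoidHom ≠ ⊥ →
      H.map (MulAut.conj a).toMonoidHom = H.map (MulAut.conj b).toMonoidHom)
    (g : G) (hm : Mp H g) : g ∈ Subgroup.normalizer (H : Set G) := by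
  by_cases hg : g ∈ Subgroup.center G
  · exact Subgroup.center_le_normalizer _ hg
  · exact conj_mem_norm H hone g hg 1 g (by simpa using hm) (by simpa using hm)

omit [Fintype G] in
theorem chi_mul_of_not_mp (H : Subgroup G) [Finite H] (χ : G → ℂ)
    (hcl : ∀ g x : G, χ (x * g * x⁻¹) = χ g)
    (g : G) (hg : g ∈ Subgroup.normalizer (H : Set G)) (hm : ¬ Mp H g) (h : H) :
    χ (g * h) = χ g := by
  have hgi : g⁻¹ ∈ Subgroup.normalizer (H : Set G) := inv_mem hg
  let c : H → H := fun k => ⟨g⁻¹ * (k : G)⁻¹ * g * k, by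
    have h1 : g⁻¹ * (k : G)⁻¹ * g⁻¹⁻¹ ∈ H :=
      (Subgroup.mem_normalizer_iff.mp hgi _).mp (inv_mem k.2)
    rw [inv_inv] at h1
    exact mul_mem h1 k.2⟩
  have hinj : Function.Injective c := by
    intro k k' hkk
    have h1 : g⁻¹ * (k : G)⁻¹ * g * k = g⁻¹ * (k' : G)⁻¹ * g * k' := congrArg Subtype.val hkk
    by_contra hne
    apply hm
    refine ⟨(k' : G) * (k : G)⁻¹, mul_mem k'.2 (inv_mem k.2), ?_, ?_⟩
    · intro h2
      apply hne
      exact Subtype.ext (mul_inv_eq_one.mp h2).symm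
    · have h3 : (k : G)⁻¹ * g * k = (k' : G)⁻¹ * g * k' := by
        calc (k : G)⁻¹ * g * k = g * (g⁻¹ * (k : G)⁻¹ * g * k) := by group
          _ = g * (g⁻¹ * (k' : G)⁻¹ * g * k') := by rw [h1]
          _ = (k' : G)⁻¹ * g * k' := by group
      calc g * ((k' : G) * (k : G)⁻¹) = k' * ((k' : G)⁻¹ * g * k') * (k : G)⁻¹ := by group
        _ = k' * ((k : G)⁻¹ * g * k) * (k : G)⁻¹ := by rw [h3]
        _ = (k' : G) * (k : G)⁻¹ * g := by group
  obtain ⟨k, hk⟩ := (Finite.injective_iff_surjective.mp hinj) h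
  have h1 : g⁻¹ * (k : G)⁻¹ * g * k = h := congrArg Subtype.val hk
  have h2 : g * h = (k : G)⁻¹ * g * (k : G)⁻¹⁻¹ := by rw [← h1]; group
  rw [h2, hcl]

omit [Fintype G] in
/-- Conjugation by a normalizing element, as a permutation of `H`. -/
def conjEq (H : Subgroup G) (g : G) (hg : g ∈ Subgroup.normalizer (H : Set G)) : H ≃ H where
  toFun h := ⟨g * h * g⁻¹, (Subgroup.mem_normalizer_iff.mp hg h).mp h.2⟩
  invFun h := ⟨g⁻¹ * h * g, by
    have h1 := (Subgroup.mem_normalizer_iff.mp (inv_mem hg) h).mp h.2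
    rwa [inv_inv] at h1⟩
  left_inv h := by
    apply Subtype.ext
    simp [mul_assoc]
  right_inv h := by
    apply Subtype.ext
    simp [mul_assoc]

omit [Fintype G] in
theorem list_sum_additive (L : (G → ℂ) → ℝ) (h0 : L 0 = 0)
    (hadd : ∀ f g, L (f + g) = L f + L g) (l : List (Cfsg.IrrCharacter G)) :
    L (l.map (fun ψ : Cfsg.IrrCharacter G => ψ.1)).sum
      = (l.map (fun ψ : Cfsg.IrrCharacter G => L ψ.1)).sum := by
  induction l with
  | nil => simpa using h0
  | cons a l ih => rw [List.map_cons, List.sum_cons, hadd, ih, List.map_cons, List.sum_cons]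

theorem abel_norm_ge {C : Type u} [Group C] [Fintype C] [IsMulCommutative C] (θ : C → ℂ)
    (hθ : Cfsg.IsCharacter C θ) : (θ 1).re ≤ (Cfsg.classInner θ θ).re := by
  classical
  obtain ⟨l, rfl⟩ := isCharacter_iff_exists_list.mp hθ
  have h1 : ((l.map (fun ψ : Cfsg.IrrCharacter C => ψ.1)).sum 1).re = (l.length : ℝ) := by
    rw [list_sum_fun_apply, List.map_map]
    have h : (l.map ((fun f : C → ℂ => f 1) ∘ fun ψ : Cfsg.IrrCharacter C => ψ.1))
        = l.map (fun _ => (1 : ℂ)) :=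
      List.map_congr_left (fun ψ _ => irr_one_of_comm ψ)
    rw [h, List.map_const', List.sum_replicate, nsmul_eq_mul, mul_one, Complex.natCast_re]
  have h2 : Cfsg.classInner (l.map (fun ψ : Cfsg.IrrCharacter C => ψ.1)).sum
      (l.map (fun ψ : Cfsg.IrrCharacter C => ψ.1)).sum
      = (((l.map (fun ψ : Cfsg.IrrCharacter C => l.count ψ)).sum : ℕ) : ℂ) := by
    rw [classInner_list_sum_right, List.map_map]
    have h : (l.map ((fun ψ => Cfsg.classInner
          (l.map (fun ψ : Cfsg.IrrCharacter C => ψ.1)).sum ψ) ∘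
          fun ψ : Cfsg.IrrCharacter C => ψ.1))
        = l.map (fun ψ : Cfsg.IrrCharacter C => ((l.count ψ : ℕ) : ℂ)) :=
      List.map_congr_left (fun ψ _ => classInner_irr_list l ψ)
    rw [h, Nat.cast_list_sum, List.map_map]
    rfl
  rw [h1, h2, Complex.natCast_re]
  have h3 : l.length ≤ (l.map (fun ψ : Cfsg.IrrCharacter C => l.count ψ)).sum := by
    have h4 : ∀ ψ ∈ l, 1 ≤ l.count ψ := fun ψ hψ => List.count_pos_iff.mpr hψ
    calc l.length = (l.map (fun _ : Cfsg.IrrCharacter C => 1)).sum := by simp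
      _ ≤ _ := List.sum_le_sum (fun ψ hψ => h4 ψ hψ)
  exact_mod_cast h3

theorem irr_const_of_normal_closure (H : Subgroup G)
    (hnorm : ∀ M : Subgroup G, M.Normal → H ≤ M → M = ⊤)
    (ψ : Cfsg.IrrCharacter G) (hψ : ∀ h ∈ H, ψ.1 h = ψ.1 1) : ψ = trivIrr G := by
  obtain ⟨m, σ, hirr, hσ⟩ := ψ.2
  have hker : H ≤ MonoidHom.ker σ := by
    intro h hh
    rw [MonoidHom.mem_ker]
    have h1 := hψ h hh
    rw [← hσ, Representation.char_one] at h1
    exact (char_eq_finrank_iff σ h).mp h1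
  have htop := hnorm _ (MonoidHom.normal_ker σ) hker
  have hall : ∀ g : G, ψ.1 g = (Module.finrank ℂ (Fin m → ℂ) : ℂ) := by
    intro g
    have hg : g ∈ MonoidHom.ker σ := by rw [htop]; trivial
    rw [← hσ]
    exact (char_eq_finrank_iff σ g).mpr (MonoidHom.mem_ker.mp hg)
  have hGne : (Nat.card G : ℂ) ≠ 0 := Nat.cast_ne_zero.mpr Nat.card_pos.ne'
  have hinner := isIrrCharacter_inner_self ψ.2
  unfold Cfsg.classInner at hinner
  simp only [hall, map_natCast, Finset.sum_const, Finset.card_univ, nsmul_eq_mul] at hinner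
  rw [← Nat.card_eq_fintype_card, ← mul_assoc, inv_mul_cancel₀ hGne, one_mul] at hinner
  have hd : Module.finrank ℂ (Fin m → ℂ) * Module.finrank ℂ (Fin m → ℂ) = 1 := by
    exact_mod_cast hinner
  have hd1 : Module.finrank ℂ (Fin m → ℂ) = 1 := by
    rcases Nat.lt_or_ge (Module.finrank ℂ (Fin m → ℂ)) 2 with h | h
    · interval_cases (Module.finrank ℂ (Fin m → ℂ))
      · simp at hd
      · rfl
    · nlinarith
  apply Subtype.ext
  funext g
  rw [hall g, hd1]
  simp [trivIrr]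

end Cfsg.Agent.Lib.helper29.FT
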