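import Mathlib
import Cfsg.Agent.Lib.helper29.FTCount

set_option autoImplicit false

namespace Cfsg.Agent.Lib.helper29.FT

open scoped ComplexConjugate
open Cfsg.Agent.Lib.helper24

universe u

variable {G : Type u} [Group G] [Fintype G]

theorem ft_key (H : Subgroup G) [Fintype H] (hab : ∀ a ∈ H, ∀ b ∈ H, a * b = b * a)
    (hZ : H ⊓ Subgroup.center G = ⊥)
    (hone : ∀ g : G, g ∉ Subgroup.center G → ∀ a b : G,
      Subgroup.centralizer ({g} : Set G) ⊓ H.map (MulAut.conj a).toMonoidHom ≠ ⊥ →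
      Subgroup.centralizer ({g} : Set G) ⊓ H.map (MulAut.conj b).toMonoidHom ≠ ⊥ →
      H.map (MulAut.conj a).toMonoidHom = H.map (MulAut.conj b).toMonoidHom)
    (χ : G → ℂ) (hχ : Cfsg.IsIrrCharacter G χ) (hker : ∃ h ∈ H, χ h ≠ χ 1) :
    (χ 1).re ^ 2 > (Nat.card H : ℝ) *
      (Cfsg.classInner (fun h : H => χ h) (fun _ => 1)).re ^ 2 := by
  classical
  have hχc : Cfsg.IsCharacter G χ := isCharacter_of_isIrrCharacter hχ
  have hcl : ∀ g x : G, χ (x * g * x⁻¹) = χ g := isCharacter_conj_class hχc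
  obtain ⟨n, hn0, hn⟩ := isIrrCharacter_one hχ
  obtain ⟨h₀, hh₀, hh₀χ⟩ := hker
  have hh₀1 : h₀ ≠ 1 := fun h => hh₀χ (by rw [h])
  haveI : Fintype (Subgroup.normalizer (H : Set G)) := Fintype.ofFinite _
  haveI : Fintype (Subgroup.center G) := Fintype.ofFinite _
  have hHne : (Nat.card H : ℂ) ≠ 0 := Nat.cast_ne_zero.mpr Nat.card_pos.ne'
  have hGne : (Nat.card G : ℂ) ≠ 0 := Nat.cast_ne_zero.mpr Nat.card_pos.ne'
  obtain ⟨F, hF⟩ : ∃ F : G → ℝ, F = fun g => Complex.normSq (χ g) := ⟨_, rfl⟩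
  have hFa : ∀ g, F g = Complex.normSq (χ g) := fun g => by rw [hF]
  obtain ⟨av, hav⟩ : ∃ av : G → ℂ, av = fun g => (Nat.card H : ℂ)⁻¹ * ∑ h : H, χ (g * h) :=
    ⟨_, rfl⟩
  have havA : ∀ g, av g = (Nat.card H : ℂ)⁻¹ * ∑ h : H, χ (g * h) := fun g => by rw [hav]
  obtain ⟨cc, hcc⟩ : ∃ cc : ℂ, cc = Cfsg.classInner (fun h : H => χ h) (fun _ => 1) :=
    ⟨_, rfl⟩
  have hFnn : ∀ g, 0 ≤ F g := fun g => by rw [hFa]; exact Complex.normSq_nonneg _
  -- (A) total sum
  have hsumF : ∑ g : G, F g = (Nat.card G : ℝ) := by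
    have h1 := isIrrCharacter_inner_self hχ
    unfold Cfsg.classInner at h1
    have h2 : ∑ g : G, χ g * conj (χ g) = ((∑ g : G, F g : ℝ) : ℂ) := by
      rw [Complex.ofReal_sum]
      exact Finset.sum_congr rfl (fun g _ => by rw [hFa]; exact Complex.mul_conj _)
    rw [h2] at h1
    have h3 : ((∑ g : G, F g : ℝ) : ℂ) = (Nat.card G : ℂ) := by
      have h4 := congrArg (fun t => (Nat.card G : ℂ) * t) h1
      simp only [← mul_assoc, mul_inv_cancel₀ hGne, one_mul, mul_one] at h4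
      exact h4
    exact_mod_cast h3
  -- (B) central values
  have hcen : ∀ z ∈ Subgroup.center G, ∃ c : ℂ, (∀ g, χ (z * g) = c * χ g) ∧ ‖c‖ = 1 := by
    intro z hz
    obtain ⟨c, hc, hck⟩ := Cfsg.Agent.Lib.helper23.isIrrCharacter_central hχ z hz
    exact ⟨c, hc, Complex.norm_eq_one_of_pow_eq_one (hck (Fintype.card G) pow_card_eq_one)
      Fintype.card_ne_zero⟩
  have hFz : ∀ z ∈ Subgroup.center G, F z = (n : ℝ) ^ 2 := by
    intro z hz
    obtain ⟨c, hc, hc1⟩ := hcen z hz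
    have h1 := hc 1
    rw [mul_one, hn] at h1
    rw [hFa, h1, Complex.normSq_mul, Complex.normSq_eq_norm_sq, hc1, ← Complex.ofReal_natCast,
      Complex.normSq_ofReal]
    ring
  -- (C) the constant
  have hccdef : cc = (Nat.card H : ℂ)⁻¹ * ∑ h : H, χ h := by
    rw [hcc]
    unfold Cfsg.classInner
    simp only [map_one, mul_one]
  have havz : ∀ z ∈ Subgroup.center G, ∀ h : H,
      Complex.normSq (av (z * h)) = Complex.normSq cc := by
    intro z hz h
    obtain ⟨c, hc, hc1⟩ := hcen z hz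
    have h1 : av (z * h) = c * cc := by
      rw [havA]
      have h2 : ∑ h' : H, χ (z * h * h') = ∑ h' : H, c * χ h' := by
        refine Fintype.sum_equiv (Equiv.mulLeft h) _ _ (fun h' => ?_)
        show χ (z * h * h') = c * χ ((h * h' : H) : G)
        rw [← hc, Subgroup.coe_mul, mul_assoc]
      rw [h2, ← Finset.mul_sum, hccdef]
      ring
    rw [h1, Complex.normSq_mul, Complex.normSq_eq_norm_sq, hc1]
    ring
  -- (D) commuting facts
  have hMpZH : ∀ z ∈ Subgroup.center G, ∀ h : H, Mp H (z * h) := by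
    intro z hz h
    have hzc : ∀ x : G, x * z = z * x := Subgroup.mem_center_iff.mp hz
    refine ⟨h₀, hh₀, hh₀1, ?_⟩
    calc z * h * h₀ = z * (h * h₀) := mul_assoc _ _ _
      _ = z * (h₀ * h) := by rw [hab h h.2 h₀ hh₀]
      _ = (z * h₀) * h := (mul_assoc _ _ _).symm
      _ = (h₀ * z) * h := by rw [hzc h₀]
      _ = h₀ * (z * h) := mul_assoc _ _ _
  have hMpZ : ∀ z ∈ Subgroup.center G, Mp H z := by
    intro z hz
    exact ⟨h₀, hh₀, hh₀1, (Subgroup.mem_center_iff.mp hz h₀).symm⟩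
  -- (E1) the disjoint-conjugates count
  have hcount : ∀ g : G, ∑ x : G, ind (Mp H (x⁻¹ * g * x) ∧ x⁻¹ * g * x ∉ Subgroup.center G)
      ≤ (∑ y : G, ind (y ∈ Subgroup.normalizer (H : Set G))) *
        ind (g ∉ Subgroup.center G) := by
    intro g
    by_cases hg : g ∈ Subgroup.center G
    · have h0 : ∀ x : G,
          ind (Mp H (x⁻¹ * g * x) ∧ x⁻¹ * g * x ∉ Subgroup.center G) = 0 := by
        intro x
        apply ind_false
        rintro ⟨_, h2⟩
        apply h2
        have h3 : x⁻¹ * g * x = g := by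
          rw [mul_assoc, ← Subgroup.mem_center_iff.mp hg x, inv_mul_cancel_left]
        rw [h3]
        exact hg
      rw [Finset.sum_congr rfl (fun x _ => h0 x), Finset.sum_const_zero,
        ind_false (not_not.mpr hg), mul_zero]
    · rw [ind_true hg, mul_one]
      exact count_le H hone g hg
  have hE1 : (Nat.card G : ℝ) * ∑ g : G, ind (Mp H g ∧ g ∉ Subgroup.center G) * F g
      ≤ (∑ y : G, ind (y ∈ Subgroup.normalizer (H : Set G))) *
        ((Nat.card G : ℝ) - (∑ g : G, ind (g ∈ Subgroup.center G)) * (n : ℝ) ^ 2) := by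
    have h1 := ti_count (fun g => Mp H g ∧ g ∉ Subgroup.center G) F hFnn
      (fun g x => by rw [hFa, hFa, hcl])
      (fun g => (∑ y : G, ind (y ∈ Subgroup.normalizer (H : Set G))) *
        ind (g ∉ Subgroup.center G)) hcount
    refine le_trans h1 (le_of_eq ?_)
    have h2 : ∀ g : G, (∑ y : G, ind (y ∈ Subgroup.normalizer (H : Set G))) *
          ind (g ∉ Subgroup.center G) * F g
        = (∑ y : G, ind (y ∈ Subgroup.normalizer (H : Set G))) *
          (F g - ind (g ∈ Subgroup.center G) * (n : ℝ) ^ 2) := by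
      intro g
      by_cases hg : g ∈ Subgroup.center G
      · rw [ind_false (not_not.mpr hg), ind_true hg, hFz g hg]; ring
      · rw [ind_true hg, ind_false hg]; ring
    rw [Finset.sum_congr rfl (fun g _ => h2 g), ← Finset.mul_sum, Finset.sum_sub_distrib,
      hsumF, ← Finset.sum_mul]
  -- (E2)
  have hE2 : ∑ g : G, ind (Mp H g) * F g
      = ∑ g : G, ind (Mp H g ∧ g ∉ Subgroup.center G) * F g
        + (∑ g : G, ind (g ∈ Subgroup.center G)) * (n : ℝ) ^ 2 := by
    rw [Finset.sum_mul, ← Finset.sum_add_distrib]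
    refine Finset.sum_congr rfl (fun g _ => ?_)
    by_cases hg : g ∈ Subgroup.center G
    · rw [ind_true (hMpZ g hg), ind_false (fun h => h.2 hg), ind_true hg, hFz g hg]; ring
    · by_cases hm : Mp H g
      · rw [ind_true hm, ind_true ⟨hm, hg⟩, ind_false hg]; ring
      · rw [ind_false hm, ind_false (fun h => hm h.1), ind_false hg]; ring
  -- (E3) the normalizer
  obtain ⟨ι, hι⟩ : ∃ ι : H →* ↥(Subgroup.normalizer (H : Set G)),
      ι = Subgroup.inclusion Subgroup.le_normalizer := ⟨_, rfl⟩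
  have hιa : ∀ h : H, ((ι h : ↥(Subgroup.normalizer (H : Set G))) : G) = h := fun h => by
    rw [hι]; rfl
  obtain ⟨θ, hθ⟩ : ∃ θ : ↥(Subgroup.normalizer (H : Set G)) → ℂ,
      θ = fun g : ↥(Subgroup.normalizer (H : Set G)) => χ (g : G) := ⟨_, rfl⟩
  have hθa : ∀ g, θ g = χ g := fun g => by rw [hθ]
  have hθc : Cfsg.IsCharacter ↥(Subgroup.normalizer (H : Set G)) θ := by
    rw [hθ]; exact isCharacter_restrict _ hχc
  have hnι : ∀ g : ↥(Subgroup.normalizer (H : Set G)),
      ∃ e : H ≃ H, ∀ h, ι (e h) * g = g * ι h := by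
    intro g
    refine ⟨conjEq H g g.2, fun h => ?_⟩
    apply Subtype.ext
    rw [Subgroup.coe_mul, Subgroup.coe_mul, hιa, hιa]
    show (g : G) * h * (g : G)⁻¹ * g = g * h
    exact inv_mul_cancel_right _ _
  have hb : ∀ g : ↥(Subgroup.normalizer (H : Set G)), subAvg ι θ g = χ g - av g := by
    intro g
    rw [subAvg_apply, havA, hθa]
    congr 2
    refine Finset.sum_congr rfl (fun h _ => ?_)
    rw [hθa, Subgroup.coe_mul, hιa]
  have hre : ∀ g : G, (χ g).re ≤ n := by
    intro g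
    have h1 := isCharacter_norm_le hχc g
    rw [hn, Complex.natCast_re] at h1
    exact le_trans (Complex.re_le_norm _) h1
  have hre₀ : (χ h₀).re < n := by
    rcases lt_or_eq_of_le (hre h₀) with h | h
    · exact h
    · exfalso
      apply hh₀χ
      rw [hn]
      have hnorm : ‖χ h₀‖ ≤ n := by
        have h1 := isCharacter_norm_le hχc h₀
        rw [hn, Complex.natCast_re] at h1
        exact h1
      have h2 : ‖χ h₀‖ ^ 2 ≤ (n : ℝ) ^ 2 := pow_le_pow_left₀ (norm_nonneg _) hnorm 2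
      have hsq : (χ h₀).re * (χ h₀).re + (χ h₀).im * (χ h₀).im ≤ (n : ℝ) ^ 2 := by
        rw [← Complex.normSq_apply, ← Complex.sq_norm]
        exact h2
      have him : (χ h₀).im * (χ h₀).im ≤ 0 := by
        rw [h] at hsq
        nlinarith
      have him0 : (χ h₀).im = 0 :=
        mul_self_eq_zero.mp (le_antisymm him (mul_self_nonneg _))
      exact Complex.ext (by simpa using h) (by simpa using him0)
  have hccre : cc.re < n := by
    have h1 : cc = (((Nat.card H : ℝ)⁻¹ : ℝ) : ℂ) * ∑ h : H, χ h := by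
      rw [hccdef, Complex.ofReal_inv, Complex.ofReal_natCast]
    rw [h1, Complex.re_ofReal_mul, Complex.re_sum]
    have h2 : ∑ h : H, (χ h).re < ∑ h : H, (n : ℝ) :=
      Finset.sum_lt_sum (fun h _ => hre h) ⟨⟨h₀, hh₀⟩, Finset.mem_univ _, hre₀⟩
    rw [Finset.sum_const, Finset.card_univ, nsmul_eq_mul, ← Nat.card_eq_fintype_card] at h2
    have hHpos : (0 : ℝ) < Nat.card H := Nat.cast_pos.mpr Nat.card_pos
    rw [inv_mul_lt_iff₀ hHpos]
    exact h2
  have hav1 : av 1 = cc := by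
    rw [havA, hccdef]
    simp only [one_mul]
  have hb1 : subAvg ι θ 1 ≠ 0 := by
    rw [hb 1, Subgroup.coe_one, hav1, hn]
    intro h
    have h2 := congrArg Complex.re h
    rw [Complex.sub_re, Complex.natCast_re, Complex.zero_re] at h2
    linarith
  have hNorm := subAvg_norm ι hnι θ hθc hb1
  have hp := subAvg_pyth ι θ
  have s1 : ∑ g : ↥(Subgroup.normalizer (H : Set G)), Complex.normSq (θ g)
      = ∑ g : G, ind (g ∈ Subgroup.normalizer (H : Set G)) * F g := by
    rw [sum_ind_sub]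
    exact Finset.sum_congr rfl (fun g _ => by rw [hθa, hFa])
  have s2 : ∑ g : ↥(Subgroup.normalizer (H : Set G)), Complex.normSq (θ g - subAvg ι θ g)
      = ∑ g : G, ind (g ∈ Subgroup.normalizer (H : Set G)) * Complex.normSq (av g) := by
    rw [sum_ind_sub]
    exact Finset.sum_congr rfl (fun g _ => by rw [hb g, hθa, sub_sub_cancel])
  have s3 : ∑ g : ↥(Subgroup.normalizer (H : Set G)), Complex.normSq (subAvg ι θ g)
      = ∑ g : G, ind (g ∈ Subgroup.normalizer (H : Set G)) *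
          Complex.normSq (χ g - av g) := by
    rw [sum_ind_sub]
    exact Finset.sum_congr rfl (fun g _ => by rw [hb g])
  have s4 : (Nat.card ↥(Subgroup.normalizer (H : Set G)) : ℝ)
      = ∑ g : G, ind (g ∈ Subgroup.normalizer (H : Set G)) := by
    rw [sum_ind_card, Nat.card_eq_fintype_card]
  have hpt : ∀ g : G, ind (Mp H g) * (F g - Complex.normSq (av g))
      = ind (g ∈ Subgroup.normalizer (H : Set G)) * (F g - Complex.normSq (av g)) := by
    intro g
    by_cases hm : Mp H g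
    · rw [ind_true hm, ind_true (mp_mem_norm H hone g hm)]
    · rw [ind_false hm, zero_mul]
      by_cases hg : g ∈ Subgroup.normalizer (H : Set G)
      · have h1 : av g = χ g := by
          rw [havA]
          have h2 : ∀ h : H, χ (g * h) = χ g := fun h => chi_mul_of_not_mp H χ hcl g hg hm h
          rw [Finset.sum_congr rfl (fun h _ => h2 h), Finset.sum_const, Finset.card_univ,
            nsmul_eq_mul, ← Nat.card_eq_fintype_card, ← mul_assoc, inv_mul_cancel₀ hHne,
            one_mul]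
        rw [h1, hFa, sub_self, mul_zero]
      · rw [ind_false hg, zero_mul]
  have hinj : Function.Injective
      (fun p : ↥(Subgroup.center G) × ↥H => (p.1 : G) * (p.2 : G)) := by
    rintro ⟨z, h⟩ ⟨z', h'⟩ heq
    have heq' : (z : G) * h = z' * h' := heq
    have h1 : (h : G) * (h' : G)⁻¹ ∈ H ⊓ Subgroup.center G := by
      refine Subgroup.mem_inf.mpr ⟨mul_mem h.2 (inv_mem h'.2), ?_⟩
      have h2 : (h : G) * (h' : G)⁻¹ = (z : G)⁻¹ * z' := by
        calc (h : G) * (h' : G)⁻¹ = (z : G)⁻¹ * ((z : G) * h) * (h' : G)⁻¹ := by group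
          _ = (z : G)⁻¹ * ((z' : G) * h') * (h' : G)⁻¹ := by rw [heq']
          _ = (z : G)⁻¹ * z' := by group
      rw [h2]
      exact mul_mem (inv_mem z.2) z'.2
    rw [hZ, Subgroup.mem_bot] at h1
    have hh : (h : G) = h' := mul_inv_eq_one.mp h1
    have hz : (z : G) = z' := by
      rw [hh] at heq'
      exact mul_right_cancel heq'
    exact Prod.ext (Subtype.ext hz) (Subtype.ext hh)
  have hZH : (∑ g : G, ind (g ∈ Subgroup.center G)) * (Nat.card H : ℝ) * Complex.normSq cc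
      ≤ ∑ g : G, ind (Mp H g) * Complex.normSq (av g) := by
    have h1 := sum_inj_le (fun p : ↥(Subgroup.center G) × ↥H => (p.1 : G) * (p.2 : G)) hinj
      (fun g => ind (Mp H g) * Complex.normSq (av g))
      (fun g => mul_nonneg (ind_nonneg _) (Complex.normSq_nonneg _))
    have h2 : ∀ p : ↥(Subgroup.center G) × ↥H,
        ind (Mp H ((p.1 : G) * (p.2 : G))) * Complex.normSq (av ((p.1 : G) * (p.2 : G)))
          = Complex.normSq cc := by
      intro p
      rw [ind_true (hMpZH p.1 p.1.2 p.2), one_mul, havz p.1 p.1.2 p.2]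
    beta_reduce at h1
    rw [Finset.sum_congr rfl (fun p _ => h2 p), Finset.sum_const, Finset.card_univ,
      Fintype.card_prod, nsmul_eq_mul] at h1
    rw [sum_ind_card, Nat.card_eq_fintype_card]
    calc (Fintype.card ↥(Subgroup.center G) : ℝ) * (Fintype.card ↥H : ℝ) * Complex.normSq cc
        = ((Fintype.card ↥(Subgroup.center G) * Fintype.card ↥H : ℕ) : ℝ) *
            Complex.normSq cc := by push_cast; ring
      _ ≤ _ := h1
  have hE3 : (∑ g : G, ind (g ∈ Subgroup.center G)) * (Nat.card H : ℝ) * Complex.normSq cc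
      + ∑ g : G, ind (g ∈ Subgroup.normalizer (H : Set G))
      ≤ ∑ g : G, ind (Mp H g) * F g := by
    have h1 : ∑ g : G, ind (Mp H g) * F g = ∑ g : G, ind (Mp H g) * Complex.normSq (av g)
        + ∑ g : G, ind (g ∈ Subgroup.normalizer (H : Set G)) *
            (F g - Complex.normSq (av g)) := by
      rw [← Finset.sum_congr rfl (fun g _ => hpt g), ← Finset.sum_add_distrib]
      exact Finset.sum_congr rfl (fun g _ => by ring)
    have h2 : ∑ g : G, ind (g ∈ Subgroup.normalizer (H : Set G)) *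
          (F g - Complex.normSq (av g))
        = ∑ g : ↥(Subgroup.normalizer (H : Set G)), Complex.normSq (subAvg ι θ g) := by
      have h3 := hp
      rw [s1, s2] at h3
      simp only [mul_sub, Finset.sum_sub_distrib]
      linarith
    rw [h1, h2]
    have h4 := hNorm
    rw [s4] at h4
    linarith [hZH]
  -- (F) final arithmetic
  obtain ⟨cN, hcN⟩ : ∃ cN : ℝ, cN = ∑ g : G, ind (g ∈ Subgroup.normalizer (H : Set G)) :=
    ⟨_, rfl⟩
  obtain ⟨cZ, hcZ⟩ : ∃ cZ : ℝ, cZ = ∑ g : G, ind (g ∈ Subgroup.center G) := ⟨_, rfl⟩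
  obtain ⟨SS, hSS⟩ : ∃ SS : ℝ,
      SS = ∑ g : G, ind (Mp H g ∧ g ∉ Subgroup.center G) * F g := ⟨_, rfl⟩
  obtain ⟨M, hM⟩ : ∃ M : ℝ, M = ∑ g : G, ind (Mp H g) * F g := ⟨_, rfl⟩
  have hcN1 : 1 ≤ cN := by
    rw [hcN]
    have h1 := Finset.single_le_sum
      (f := fun g : G => ind (g ∈ Subgroup.normalizer (H : Set G)))
      (fun g _ => ind_nonneg _) (Finset.mem_univ (1 : G))
    rw [ind_true (one_mem _)] at h1
    exact h1
  have hcZ1 : 1 ≤ cZ := by
    rw [hcZ]
    have h1 := Finset.single_le_sum (f := fun g : G => ind (g ∈ Subgroup.center G))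
      (fun g _ => ind_nonneg _) (Finset.mem_univ (1 : G))
    rw [ind_true (one_mem _)] at h1
    exact h1
  rw [← hcN, ← hcZ, ← hSS] at hE1
  rw [← hM, ← hSS, ← hcZ] at hE2
  rw [← hcZ, ← hcN, ← hM] at hE3
  have hGc : (0 : ℝ) < Nat.card G := Nat.cast_pos.mpr Nat.card_pos
  have hnn : (1 : ℝ) ≤ n := by exact_mod_cast hn0
  have h5 : (Nat.card G : ℝ) *
      (cZ * (Nat.card H : ℝ) * Complex.normSq cc + cN - cZ * (n : ℝ) ^ 2)
      ≤ cN * ((Nat.card G : ℝ) - cZ * (n : ℝ) ^ 2) :=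
    le_trans (mul_le_mul_of_nonneg_left (by linarith) hGc.le) hE1
  have hpos : 0 < cN * cZ * (n : ℝ) ^ 2 :=
    mul_pos (mul_pos (by linarith) (by linarith)) (pow_pos (by linarith) 2)
  have h6 : ((Nat.card G : ℝ) * cZ) * ((Nat.card H : ℝ) * Complex.normSq cc)
      < ((Nat.card G : ℝ) * cZ) * (n : ℝ) ^ 2 := by nlinarith [h5, hpos]
  have h7 : (Nat.card H : ℝ) * Complex.normSq cc < (n : ℝ) ^ 2 :=
    lt_of_mul_lt_mul_left h6 (mul_nonneg hGc.le (by linarith))
  rw [hn, Complex.natCast_re, ← hcc]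
  have hq : cc.re ^ 2 ≤ Complex.normSq cc := by
    rw [Complex.normSq_apply]
    nlinarith [mul_self_nonneg cc.im]
  have hHc : (0 : ℝ) ≤ Nat.card H := Nat.cast_nonneg _
  calc (Nat.card H : ℝ) * cc.re ^ 2 ≤ (Nat.card H : ℝ) * Complex.normSq cc :=
        mul_le_mul_of_nonneg_left hq hHc
    _ < (n : ℝ) ^ 2 := h7

theorem ft_part2 (H : Subgroup G) [Fintype H] (hab : ∀ a ∈ H, ∀ b ∈ H, a * b = b * a)
    (hZ : H ⊓ Subgroup.center G = ⊥)
    (hone : ∀ g : G, g ∉ Subgroup.center G → ∀ a b : G,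
      Subgroup.centralizer ({g} : Set G) ⊓ H.map (MulAut.conj a).toMonoidHom ≠ ⊥ →
      Subgroup.centralizer ({g} : Set G) ⊓ H.map (MulAut.conj b).toMonoidHom ≠ ⊥ →
      H.map (MulAut.conj a).toMonoidHom = H.map (MulAut.conj b).toMonoidHom)
    (χ : G → ℂ) (hχ : Cfsg.IsIrrCharacter G χ) (h1 : χ 1 ≠ 1)
    (hnorm : ∀ M : Subgroup G, M.Normal → H ≤ M → M = ⊤) :
    (1 + (χ 1).re) ^ 2 > (Nat.card H : ℝ) := by
  classical
  have hχc : Cfsg.IsCharacter G χ := isCharacter_of_isIrrCharacter hχ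
  obtain ⟨n, hn0, hn⟩ := isIrrCharacter_one hχ
  have hn2 : 2 ≤ n := by
    rcases Nat.lt_or_ge n 2 with h | h
    · exfalso
      apply h1
      have h2 : n = 1 := by omega
      rw [hn, h2]
      simp
    · exact h
  haveI : IsMulCommutative ↥H := ⟨⟨fun a b => Subtype.ext (hab a a.2 b b.2)⟩⟩
  have hHne : (Nat.card H : ℂ) ≠ 0 := Nat.cast_ne_zero.mpr Nat.card_pos.ne'
  have hθ : Cfsg.IsCharacter G (χ * fun g => conj (χ g)) :=
    isCharacter_mul hχc (isCharacter_conj hχc)
  obtain ⟨l, hl⟩ := isCharacter_iff_exists_list.mp hθ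
  have hcount : l.count (trivIrr G) = 1 := by
    have h2 := classInner_irr_list l (trivIrr G)
    rw [← hl] at h2
    have h3 : Cfsg.classInner (χ * fun g => conj (χ g)) (trivIrr G).1
        = Cfsg.classInner χ χ := by
      unfold Cfsg.classInner
      congr 1
      refine Finset.sum_congr rfl (fun g _ => ?_)
      simp [trivIrr]
    rw [h3, isIrrCharacter_inner_self hχ] at h2
    exact_mod_cast h2.symm
  have hmem : trivIrr G ∈ l := List.count_pos_iff.mp (by omega)
  have hperm := List.perm_cons_erase hmem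
  obtain ⟨l', hl'⟩ : ∃ l' : List (Cfsg.IrrCharacter G), l' = l.erase (trivIrr G) := ⟨_, rfl⟩
  rw [← hl'] at hperm
  have hnot : trivIrr G ∉ l' := by
    rw [← List.count_eq_zero, hl', List.count_erase_self, hcount]
  obtain ⟨Ld, hLd⟩ : ∃ Ld : (G → ℂ) → ℝ, Ld = fun f => (f 1).re := ⟨_, rfl⟩
  obtain ⟨Lc, hLc⟩ : ∃ Lc : (G → ℂ) → ℝ,
      Lc = fun f => (Cfsg.classInner (fun h : H => f h) (fun _ => 1)).re := ⟨_, rfl⟩
  have hLda : ∀ f, Ld f = (f 1).re := fun f => by rw [hLd]
  have hLca : ∀ f, Lc f = (Cfsg.classInner (fun h : H => f h) (fun _ => 1)).re :=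
    fun f => by rw [hLc]
  have hsd := list_sum_additive Ld (by rw [hLda]; simp) (fun f g => by
    rw [hLda, hLda, hLda]; simp) l
  have hsc := list_sum_additive Lc (by rw [hLca]; simp [Cfsg.classInner]) (fun f g => by
    rw [hLca, hLca, hLca]
    have h2 : (fun h : H => (f + g) h) = (fun h : H => f h) + (fun h : H => g h) := rfl
    rw [h2, classInner_add_left, Complex.add_re]) l
  rw [← hl, (hperm.map _).sum_eq, List.map_cons, List.sum_cons] at hsd hsc
  have hLdθ : Ld (χ * fun g => conj (χ g)) = (n : ℝ) ^ 2 := by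
    rw [hLda]
    show (χ 1 * conj (χ 1)).re = (n : ℝ) ^ 2
    rw [hn, Complex.conj_natCast, ← Nat.cast_mul, Complex.natCast_re]
    push_cast
    ring
  have hLdt : Ld (trivIrr G).1 = 1 := by
    rw [hLda]
    show ((1 : ℂ)).re = 1
    exact Complex.one_re
  have hLct : Lc (trivIrr G).1 = 1 := by
    rw [hLca]
    show (Cfsg.classInner (fun _ : H => (1 : ℂ)) (fun _ => 1)).re = 1
    unfold Cfsg.classInner
    simp only [map_one, mul_one, Finset.sum_const, Finset.card_univ, nsmul_eq_mul]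
    rw [← Nat.card_eq_fintype_card, inv_mul_cancel₀ hHne, Complex.one_re]
  have hLcθ : Lc (χ * fun g => conj (χ g))
      = (Cfsg.classInner (fun h : H => χ h) (fun h : H => χ h)).re := by
    rw [hLca]
    show (Cfsg.classInner (fun h : H => χ h * conj (χ h)) (fun _ => 1)).re = _
    unfold Cfsg.classInner
    simp only [map_one, mul_one]
  have hs : (n : ℝ) ≤ (Cfsg.classInner (fun h : H => χ h) (fun h : H => χ h)).re := by
    have h2 := abel_norm_ge (fun h : H => χ h) (isCharacter_restrict H hχc)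
    simpa [hn] using h2
  rw [hLdθ, hLdt] at hsd
  rw [hLcθ, hLct] at hsc
  have hper : ∀ ψ ∈ l', Real.sqrt (Nat.card H) * Lc ψ.1 < Ld ψ.1 := by
    intro ψ hψ
    have hne : ψ ≠ trivIrr G := fun h => hnot (h ▸ hψ)
    have hk : ∃ h ∈ H, ψ.1 h ≠ ψ.1 1 := by
      by_contra hcon
      push_neg at hcon
      exact hne (irr_const_of_normal_closure H hnorm ψ hcon)
    have hkey := ft_key H hab hZ hone ψ.1 ψ.2 hk
    have hd : 0 < (ψ.1 1).re := by
      obtain ⟨m, hm0, hm⟩ := isIrrCharacter_one ψ.2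
      rw [hm, Complex.natCast_re]
      exact_mod_cast hm0
    have hc : 0 ≤ (Cfsg.classInner (fun h : H => ψ.1 h) (fun _ => 1)).re := by
      obtain ⟨m, σ, hirr, hσ⟩ := ψ.2
      rw [← hσ, classInner_restrict_trivial_eq_finrank σ H, Complex.natCast_re]
      exact Nat.cast_nonneg _
    rw [hLca, hLda]
    apply lt_of_pow_lt_pow_left₀ 2 hd.le
    rw [mul_pow, Real.sq_sqrt (Nat.cast_nonneg _)]
    exact hkey
  have hnn : (2 : ℝ) ≤ n := by exact_mod_cast hn2
  have hl'ne : l' ≠ [] := by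
    intro h
    rw [h] at hsd
    simp only [List.map_nil, List.sum_nil, add_zero] at hsd
    nlinarith
  have hlt := List.sum_lt_sum_of_ne_nil hl'ne _ _ hper
  rw [List.sum_map_mul_left] at hlt
  have hr0 : 0 ≤ Real.sqrt (Nat.card H) := Real.sqrt_nonneg _
  obtain ⟨r, hr⟩ : ∃ r : ℝ, r = Real.sqrt (Nat.card H) := ⟨_, rfl⟩
  rw [← hr] at hlt hr0
  obtain ⟨C', hC'⟩ : ∃ C' : ℝ, C' = (l'.map (fun ψ : Cfsg.IrrCharacter G => Lc ψ.1)).sum :=
    ⟨_, rfl⟩
  obtain ⟨D', hD'⟩ : ∃ D' : ℝ, D' = (l'.map (fun ψ : Cfsg.IrrCharacter G => Ld ψ.1)).sum :=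
    ⟨_, rfl⟩
  rw [← hC', ← hD'] at hlt
  rw [← hD'] at hsd
  rw [← hC'] at hsc
  have h5 : r * ((n : ℝ) - 1) < ((n : ℝ) + 1) * ((n : ℝ) - 1) := by
    have h6 : r * ((n : ℝ) - 1) ≤ r * C' :=
      mul_le_mul_of_nonneg_left (by linarith) hr0
    nlinarith
  have h6 : r < (n : ℝ) + 1 := lt_of_mul_lt_mul_right h5 (by linarith)
  have h7 : (Nat.card H : ℝ) = r ^ 2 := by
    rw [hr, Real.sq_sqrt (Nat.cast_nonneg _)]
  have h8 := pow_lt_pow_left₀ h6 hr0 two_ne_zero
  rw [hn, Complex.natCast_re, h7]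
  linarith [h8]

end Cfsg.Agent.Lib.helper29.FT
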