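import Mathlib
import Cfsg.Agent.Lib.helper29.FTKey

set_option autoImplicit false

namespace Cfsg.Agent.Lib.helper29.FT

universe u

open scoped commutatorElement

/-- All Sylow `p`-subgroups are normal. -/
def AllSylNormal (p : ℕ) (Y : Type*) [Group Y] : Prop :=
  ∀ Q : Sylow p Y, (Q : Subgroup Y).Normal

/-- Every proper subgroup has all its Sylow `p`-subgroups normal. -/
def MinBad (p : ℕ) (Y : Type*) [Group Y] : Prop :=
  ∀ L : Subgroup Y, L ≠ ⊤ → AllSylNormal p ↥L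

theorem allSylNormal_of_equiv {p : ℕ} {Y Z : Type*} [Group Y] [Group Z] (e : Y ≃* Z)
    (h : AllSylNormal p Y) : AllSylNormal p Z := by
  intro Q
  have hle : (Q : Subgroup Z) ≤ e.toMonoidHom.range := by
    intro z _
    exact ⟨e.symm z, by simp⟩
  have h1 := h (Q.comapOfInjective e.toMonoidHom e.injective hle)
  have h1' : ((Q : Subgroup Z).comap e.toMonoidHom).Normal := h1
  have h2 := h1'.map e.toMonoidHom e.surjective
  rwa [Subgroup.map_comap_eq_self_of_surjective e.surjective] at h2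

section Basics

variable {X : Type u} [Group X] {p : ℕ} [Fact p.Prime]

theorem eq_one_of_pow_of_coprime {y : X} (k : ℕ) (h1 : y ^ (p ^ k) = 1) (m : ℕ)
    (h2 : y ^ m = 1) (hm : ¬ p ∣ m) : y = 1 := by
  have hp : p.Prime := Fact.out
  have hc : Nat.Coprime (p ^ k) m :=
    Nat.Coprime.pow_left k ((Nat.Prime.coprime_iff_not_dvd hp).mpr hm)
  have h3 : y ^ (p ^ k).gcd m = 1 := pow_gcd_eq_one.mpr ⟨h1, h2⟩
  rw [Nat.Coprime] at hc
  rw [hc, pow_one] at h3
  exact h3

theorem isPGroup_zpowers (g : X) (k : ℕ) (h : g ^ (p ^ k) = 1) :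
    IsPGroup p ↥(Subgroup.zpowers g) := by
  rintro ⟨x, hx⟩
  obtain ⟨j, rfl⟩ := Subgroup.mem_zpowers_iff.mp hx
  refine ⟨k, Subtype.ext ?_⟩
  show (g ^ j) ^ (p ^ k) = 1
  rw [← zpow_natCast, ← zpow_mul, mul_comm, zpow_mul, zpow_natCast, h, one_zpow]

variable [Finite X]

theorem sylow_eq_of_allNormal (h : AllSylNormal p X) (S T : Sylow p X) : S = T := by
  obtain ⟨g, hg⟩ := MulAction.exists_smul_eq X S T
  haveI := h S
  rw [Sylow.smul_eq_of_normal] at hg
  exact hg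

theorem syl_eq_of_good (L : Subgroup X) (hL : AllSylNormal p ↥L) (P Q : Sylow p X)
    (hP : (P : Subgroup X) ≤ L) (hQ : (Q : Subgroup X) ≤ L) : P = Q := by
  have h1 := sylow_eq_of_allNormal hL (P.subtype hP) (Q.subtype hQ)
  have h2 : (P : Subgroup X).subgroupOf L = (Q : Subgroup X).subgroupOf L := by
    rw [← Sylow.coe_subtype P hP, ← Sylow.coe_subtype Q hQ, h1]
  apply Sylow.ext
  apply Subgroup.ext
  intro x
  constructor
  · intro hx
    have h3 : (⟨x, hP hx⟩ : ↥L) ∈ (P : Subgroup X).subgroupOf L := Subgroup.mem_subgroupOf.mpr hx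
    rw [h2] at h3
    exact Subgroup.mem_subgroupOf.mp h3
  · intro hx
    have h3 : (⟨x, hQ hx⟩ : ↥L) ∈ (Q : Subgroup X).subgroupOf L := Subgroup.mem_subgroupOf.mpr hx
    rw [← h2] at h3
    exact Subgroup.mem_subgroupOf.mp h3

theorem mem_smul_sylow (g : X) (P : Sylow p X) (x : X) :
    x ∈ ((g • P : Sylow p X) : Subgroup X) ↔ ∃ s ∈ (P : Subgroup X), g * s * g⁻¹ = x := by
  rw [Sylow.smul_def, Sylow.pointwise_smul_def, Subgroup.mem_smul_pointwise_iff_exists]
  simp [MulAut.smul_def]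

theorem normal_closure_top (hmin : MinBad p X) (P : Sylow p X)
    (hP : ¬ (P : Subgroup X).Normal) (M : Subgroup X) (hM : M.Normal)
    (hPM : (P : Subgroup X) ≤ M) : M = ⊤ := by
  by_contra hne
  apply hP
  rw [← Subgroup.normalizer_eq_top_iff, eq_top_iff]
  intro g _
  refine Sylow.smul_eq_iff_mem_normalizer.mp ?_
  refine syl_eq_of_good M (hmin M hne) (g • P) P ?_ hPM
  intro x hx
  obtain ⟨s, hs, rfl⟩ := (mem_smul_sylow g P x).mp hx
  exact hM.conj_mem s (hPM hs) g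

theorem exists_smul_ne (P : Sylow p X) (hP : ¬ (P : Subgroup X).Normal) :
    ∃ g : X, g • P ≠ P := by
  by_contra hcon
  simp only [ne_eq, not_exists, not_not] at hcon
  apply hP
  rw [← Subgroup.normalizer_eq_top_iff, eq_top_iff]
  intro g _
  exact Sylow.smul_eq_iff_mem_normalizer.mp (hcon g)

theorem syl_inter_le_center (hmin : MinBad p X)
    (hab : ∀ P : Sylow p X, ∀ a ∈ (P : Subgroup X), ∀ b ∈ (P : Subgroup X), a * b = b * a)
    (P Q : Sylow p X) (hPQ : P ≠ Q) :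
    (P : Subgroup X) ⊓ (Q : Subgroup X) ≤ Subgroup.center X := by
  intro d hd
  obtain ⟨hdP, hdQ⟩ := Subgroup.mem_inf.mp hd
  by_contra hdc
  apply hPQ
  have hne : Subgroup.centralizer ({d} : Set X) ≠ ⊤ := by
    intro h
    apply hdc
    rw [Subgroup.mem_center_iff]
    intro g
    have hg : g ∈ Subgroup.centralizer ({d} : Set X) := by rw [h]; trivial
    exact (Subgroup.mem_centralizer_iff.mp hg d rfl).symm
  refine syl_eq_of_good _ (hmin _ hne) P Q ?_ ?_
  · intro a ha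
    rw [Subgroup.mem_centralizer_iff]
    intro h hh
    rw [Set.mem_singleton_iff.mp hh]
    exact hab P d hdP a ha
  · intro a ha
    rw [Subgroup.mem_centralizer_iff]
    intro h hh
    rw [Set.mem_singleton_iff.mp hh]
    exact hab Q d hdQ a ha

theorem center_inter_commutator (P : Sylow p X)
    (hab : ∀ a ∈ (P : Subgroup X), ∀ b ∈ (P : Subgroup X), a * b = b * a)
    (z : X) (hzP : z ∈ (P : Subgroup X)) (hzc : z ∈ Subgroup.center X)
    (hzd : z ∈ commutator X) : z = 1 := by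
  letI : CommGroup ↥(P : Subgroup X) :=
    { (inferInstance : Group ↥(P : Subgroup X)) with
      mul_comm := fun a b => Subtype.ext (hab a a.2 b b.2) }
  have hcomm : ∀ g : X, Commute g z := Subgroup.mem_center_iff.mp hzc
  have key : ∀ (k : ℕ) (g₀ : X), g₀⁻¹ * z ^ k * g₀ ∈ (P : Subgroup X) →
      g₀⁻¹ * z ^ k * g₀ = z ^ k := by
    intro k g₀ _
    have h1 : z ^ k * g₀ = g₀ * z ^ k := (Commute.pow_right (hcomm g₀) k).eq.symm
    rw [mul_assoc, h1, inv_mul_cancel_left]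
  have h2 := MonoidHom.transfer_eq_pow (MonoidHom.id ↥(P : Subgroup X)) z key
  have h3 : MonoidHom.transfer (MonoidHom.id ↥(P : Subgroup X)) z = 1 :=
    (Abelianization.commutator_subset_ker _) hzd
  rw [h3] at h2
  have h4 : z ^ (P : Subgroup X).index = 1 := by
    have h5 := congrArg Subtype.val h2
    simpa using h5.symm
  obtain ⟨k, hk⟩ := P.isPGroup' ⟨z, hzP⟩
  have hk' : z ^ (p ^ k) = 1 := by
    have h5 := congrArg Subtype.val hk
    simpa using h5
  exact eq_one_of_pow_of_coprime k hk' _ h4 P.not_dvd_index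

theorem pelt_mem_all (N : Subgroup X) (hN : N.Normal) (hgood : AllSylNormal p ↥N) (w : X)
    (hwN : w ∈ N) (k : ℕ) (hw : w ^ (p ^ k) = 1) (Q : Sylow p X) : w ∈ (Q : Subgroup X) := by
  obtain ⟨S⟩ : Nonempty (Sylow p ↥N) := inferInstance
  obtain ⟨R, hR⟩ := (S.isPGroup'.map N.subtype).exists_le_sylow
  obtain ⟨h, hh⟩ := MulAction.exists_smul_eq X R Q
  have hw'N : h⁻¹ * w * h ∈ N := by
    have h1 := hN.conj_mem w hwN h⁻¹
    rwa [inv_inv] at h1
  have hw' : (⟨h⁻¹ * w * h, hw'N⟩ : ↥N) ^ (p ^ k) = 1 := by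
    apply Subtype.ext
    show (h⁻¹ * w * h) ^ (p ^ k) = 1
    have h1 : (h⁻¹ * w * h⁻¹⁻¹) ^ (p ^ k) = h⁻¹ * w ^ (p ^ k) * h⁻¹⁻¹ := conj_pow
    rw [inv_inv] at h1
    rw [h1, hw]
    group
  obtain ⟨S₂, hS₂⟩ := (isPGroup_zpowers (⟨h⁻¹ * w * h, hw'N⟩ : ↥N) k hw').exists_le_sylow
  have hS : S₂ = S := sylow_eq_of_allNormal hgood S₂ S
  have h1 : (⟨h⁻¹ * w * h, hw'N⟩ : ↥N) ∈ (S : Subgroup ↥N) := by
    rw [← hS]
    exact hS₂ (Subgroup.mem_zpowers _)
  have h2 : h⁻¹ * w * h ∈ (R : Subgroup X) := hR (Subgroup.mem_map.mpr ⟨_, h1, rfl⟩)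
  rw [← hh, mem_smul_sylow]
  exact ⟨_, h2, by group⟩

theorem ml (hmin : MinBad p X)
    (hab : ∀ P : Sylow p X, ∀ a ∈ (P : Subgroup X), ∀ b ∈ (P : Subgroup X), a * b = b * a)
    (P : Sylow p X) (hP : ¬ (P : Subgroup X).Normal) (hc : commutator X ≠ ⊤) :
    ¬ p ∣ Nat.card (commutator X) ∧ commutator X ⊔ (P : Subgroup X) = ⊤ := by
  have hsup : commutator X ⊔ (P : Subgroup X) = ⊤ := by
    refine normal_closure_top hmin P hP _ ?_ le_sup_right
    constructor
    intro n hn g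
    have h1 : ⁅g, n⁆ ∈ commutator X := by
      rw [commutator_def]
      exact Subgroup.commutator_mem_commutator (Subgroup.mem_top g) (Subgroup.mem_top n)
    have h2 : g * n * g⁻¹ = ⁅g, n⁆ * n := by rw [commutatorElement_def]; group
    rw [h2]
    exact mul_mem (Subgroup.mem_sup_left h1) hn
  refine ⟨?_, hsup⟩
  have hgood := hmin _ hc
  have hNn : (commutator X).Normal := inferInstance
  obtain ⟨g, hg⟩ := exists_smul_ne P hP
  intro hdvd
  obtain ⟨w, hw⟩ := exists_prime_orderOf_dvd_card' (G := ↥(commutator X)) p hdvd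
  have hw1 : (w : X) ^ (p ^ 1) = 1 := by
    rw [pow_one, ← hw, ← Subgroup.coe_pow, pow_orderOf_eq_one, Subgroup.coe_one]
  have hwP := pelt_mem_all _ hNn hgood (w : X) w.2 1 hw1 P
  have hwQ := pelt_mem_all _ hNn hgood (w : X) w.2 1 hw1 (g • P)
  have hwc : (w : X) ∈ Subgroup.center X :=
    syl_inter_le_center hmin hab P (g • P) (Ne.symm hg) (Subgroup.mem_inf.mpr ⟨hwP, hwQ⟩)
  have hw0 : (w : X) = 1 := center_inter_commutator P (hab P) (w : X) hwP hwc w.2
  have hw2 : w = 1 := Subtype.ext hw0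
  rw [hw2, orderOf_one] at hw
  exact (Fact.out : p.Prime).one_lt.ne hw

end Basics

end Cfsg.Agent.Lib.helper29.FT
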