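import Mathlib
import Cfsg.Agent.Lib.helper29.ItoA

set_option autoImplicit false

namespace Cfsg.Agent.Lib.helper29.FT

universe u

open scoped commutatorElement Pointwise

/-- A minimal configuration: a non-normal abelian Sylow subgroup with a normal complement,
all proper subgroups having normal Sylow subgroups. -/
structure Cfg (p : ℕ) [Fact p.Prime] (X : Type u) [Group X] [Finite X] where
  P : Sylow p X
  N : Subgroup X
  nN : N.Normal
  hmin : MinBad p X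
  hP : ¬ (P : Subgroup X).Normal
  hab : ∀ a ∈ (P : Subgroup X), ∀ b ∈ (P : Subgroup X), a * b = b * a
  hNp : ¬ p ∣ Nat.card N
  hsup : N ⊔ (P : Subgroup X) = ⊤

section Config

variable {X : Type u} [Group X] {p : ℕ} [Fact p.Prime]

/-- The set-product subgroup. -/
def prodSub (M Q : Subgroup X) (h : ∀ x ∈ Q, ∀ m ∈ M, x * m * x⁻¹ ∈ M) : Subgroup X where
  carrier := {g | ∃ m ∈ M, ∃ x ∈ Q, g = m * x}
  one_mem' := ⟨1, M.one_mem, 1, Q.one_mem, (mul_one 1).symm⟩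
  mul_mem' := by
    rintro a b ⟨m₁, hm₁, x₁, hx₁, rfl⟩ ⟨m₂, hm₂, x₂, hx₂, rfl⟩
    exact ⟨m₁ * (x₁ * m₂ * x₁⁻¹), M.mul_mem hm₁ (h x₁ hx₁ m₂ hm₂), x₁ * x₂, Q.mul_mem hx₁ hx₂,
      by group⟩
  inv_mem' := by
    rintro a ⟨m, hm, x, hx, rfl⟩
    refine ⟨x⁻¹ * m⁻¹ * x⁻¹⁻¹, h x⁻¹ (Q.inv_mem hx) m⁻¹ (M.inv_mem hm), x⁻¹, Q.inv_mem hx, ?_⟩
    group

theorem mem_prodSub (M Q : Subgroup X) (h : ∀ x ∈ Q, ∀ m ∈ M, x * m * x⁻¹ ∈ M) (g : X) :
    g ∈ prodSub M Q h ↔ ∃ m ∈ M, ∃ x ∈ Q, g = m * x := Iff.rfl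

theorem comm_of_twisted {x y : X} (a : ℕ) (hx : x ^ (p ^ a) = 1) (n : ℕ) (hn : ¬ p ∣ n)
    (hk : (y⁻¹ * (x * y * x⁻¹)) ^ n = 1)
    (hc : x * (y⁻¹ * (x * y * x⁻¹)) = (y⁻¹ * (x * y * x⁻¹)) * x) : x * y = y * x := by
  have hxy : x * y * x⁻¹ = y * (y⁻¹ * (x * y * x⁻¹)) := by group
  have hcj : ∀ j : ℕ, x * (y⁻¹ * (x * y * x⁻¹)) ^ j * x⁻¹ = (y⁻¹ * (x * y * x⁻¹)) ^ j := by
    intro j
    have h1 : Commute x ((y⁻¹ * (x * y * x⁻¹)) ^ j) :=
      Commute.pow_right (show Commute x (y⁻¹ * (x * y * x⁻¹)) from hc) j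
    rw [h1.eq, mul_inv_cancel_right]
  have key : ∀ j : ℕ, x ^ j * y * (x ^ j)⁻¹ = y * (y⁻¹ * (x * y * x⁻¹)) ^ j := by
    intro j
    induction j with
    | zero => simp
    | succ j ih =>
      have h1 : x ^ (j + 1) * y * (x ^ (j + 1))⁻¹ = x * (x ^ j * y * (x ^ j)⁻¹) * x⁻¹ := by
        rw [pow_succ']; group
      have h2 : x * (y * (y⁻¹ * (x * y * x⁻¹)) ^ j) * x⁻¹
          = (x * y * x⁻¹) * (x * (y⁻¹ * (x * y * x⁻¹)) ^ j * x⁻¹) := by group
      have e : ∀ K : X, x * y * x⁻¹ * K = y * (y⁻¹ * (x * y * x⁻¹) * K) := by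
        intro K; group
      rw [h1, ih, h2, hcj j, pow_succ']
      exact e _
  have h3 := key (p ^ a)
  rw [hx, one_mul, inv_one, mul_one] at h3
  have h4 : (y⁻¹ * (x * y * x⁻¹)) ^ (p ^ a) = 1 := by
    have h5 := congrArg (fun z => y⁻¹ * z) h3
    simp only [inv_mul_cancel, inv_mul_cancel_left] at h5
    exact h5.symm
  have h6 : y⁻¹ * (x * y * x⁻¹) = 1 := eq_one_of_pow_of_coprime a h4 n hk hn
  have h7 : x * y = y * (y⁻¹ * (x * y * x⁻¹)) * x := by group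
  rw [h7, h6, mul_one]

variable [Finite X]

theorem Cfg.disj (c : Cfg p X) {y : X} (hN : y ∈ c.N) (hP : y ∈ (c.P : Subgroup X)) : y = 1 := by
  obtain ⟨k, hk⟩ := c.P.isPGroup' ⟨y, hP⟩
  have hk' : y ^ (p ^ k) = 1 := by
    have h5 := congrArg Subtype.val hk
    simpa using h5
  have h2 : y ^ Nat.card c.N = 1 := by
    have h5 : (⟨y, hN⟩ : ↥c.N) ^ Nat.card ↥c.N = 1 := pow_card_eq_one'
    have h6 := congrArg Subtype.val h5
    rw [Subgroup.coe_pow, Subgroup.coe_one] at h6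
    exact h6
  exact eq_one_of_pow_of_coprime k hk' _ h2 c.hNp

theorem Cfg.decomp (c : Cfg p X) (g : X) :
    ∃ y ∈ c.N, ∃ x ∈ (c.P : Subgroup X), g = y * x := by
  haveI := c.nN
  have h1 : g ∈ ((c.N ⊔ (c.P : Subgroup X) : Subgroup X) : Set X) := by
    rw [c.hsup]; exact Set.mem_univ g
  rw [Subgroup.normal_mul] at h1
  obtain ⟨y, hy, x, hx, rfl⟩ := Set.mem_mul.mp h1
  exact ⟨y, hy, x, hx, rfl⟩

theorem Cfg.cent_of_proper (c : Cfg p X) (M : Subgroup X) (hMN : M ≤ c.N) (hne : M ≠ c.N)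
    (hinv : ∀ x ∈ (c.P : Subgroup X), ∀ m ∈ M, x * m * x⁻¹ ∈ M) :
    ∀ m ∈ M, ∀ x ∈ (c.P : Subgroup X), m * x = x * m := by
  have hL : prodSub M (c.P : Subgroup X) hinv ≠ ⊤ := by
    intro htop
    apply hne
    apply le_antisymm hMN
    intro y hy
    have hy' : y ∈ prodSub M (c.P : Subgroup X) hinv := by rw [htop]; exact Subgroup.mem_top y
    obtain ⟨m, hm, x, hx, rfl⟩ := (mem_prodSub _ _ _ _).mp hy'
    have hxN : x ∈ c.N := by
      have h1 : m⁻¹ * (m * x) ∈ c.N := c.N.mul_mem (c.N.inv_mem (hMN hm)) hy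
      rwa [inv_mul_cancel_left] at h1
    rw [c.disj hxN hx, mul_one]
    exact hm
  have hPL : (c.P : Subgroup X) ≤ prodSub M (c.P : Subgroup X) hinv := by
    intro x hx
    exact (mem_prodSub _ _ _ _).mpr ⟨1, M.one_mem, x, hx, (one_mul x).symm⟩
  have hML : M ≤ prodSub M (c.P : Subgroup X) hinv := by
    intro m hm
    exact (mem_prodSub _ _ _ _).mpr ⟨m, hm, 1, Subgroup.one_mem _, (mul_one m).symm⟩
  have hnorm := c.hmin _ hL (c.P.subtype hPL)
  rw [Sylow.coe_subtype] at hnorm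
  intro m hm x hx
  have h1 := hnorm.conj_mem ⟨x, hPL hx⟩ (Subgroup.mem_subgroupOf.mpr hx) ⟨m, hML hm⟩
  have h2 : m * x * m⁻¹ ∈ (c.P : Subgroup X) := Subgroup.mem_subgroupOf.mp h1
  have h3 : m * x * m⁻¹ * x⁻¹ ∈ (c.P : Subgroup X) := mul_mem h2 (inv_mem hx)
  have h4 : m * x * m⁻¹ * x⁻¹ ∈ M := by
    have h5 : m * (x * m⁻¹ * x⁻¹) ∈ M := M.mul_mem hm (hinv x hx m⁻¹ (M.inv_mem hm))
    have h6 : m * x * m⁻¹ * x⁻¹ = m * (x * m⁻¹ * x⁻¹) := by group
    rw [h6]; exact h5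
  have h7 := c.disj (hMN h4) h3
  have h8 : m * x = (m * x * m⁻¹ * x⁻¹) * (x * m) := by group
  rw [h8, h7, one_mul]

theorem Cfg.not_cent (c : Cfg p X) :
    ¬ (∀ y ∈ c.N, ∀ x ∈ (c.P : Subgroup X), x * y = y * x) := by
  intro h
  apply c.hP
  rw [← Subgroup.normalizer_eq_top_iff, eq_top_iff, ← c.hsup]
  refine sup_le ?_ Subgroup.le_normalizer
  intro y hy
  rw [Subgroup.mem_normalizer_iff]
  intro x
  constructor
  · intro hx
    have h1 : y * x * y⁻¹ = x := by rw [← h y hy x hx, mul_inv_cancel_right]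
    rw [h1]; exact hx
  · intro hx
    have h1 := h y⁻¹ (c.N.inv_mem hy) _ hx
    have h2 : x = y⁻¹ * (y * x * y⁻¹) * y := by group
    have h3 : y⁻¹ * (y * x * y⁻¹) * y = y * x * y⁻¹ := by rw [← h1]; group
    have h4 : x = y * x * y⁻¹ := h2.trans h3
    rw [h4]; exact hx

theorem Cfg.gen (c : Cfg p X) (M : Subgroup X) (hMN : M ≤ c.N)
    (hinv : ∀ x ∈ (c.P : Subgroup X), ∀ m ∈ M, x * m * x⁻¹ ∈ M)
    (hcomm : ∀ y ∈ c.N, ∀ x ∈ (c.P : Subgroup X), y⁻¹ * (x * y * x⁻¹) ∈ M) : M = c.N := by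
  by_contra hne
  have hcent := c.cent_of_proper M hMN hne hinv
  apply c.not_cent
  intro y hy x hx
  obtain ⟨a, ha⟩ := c.P.isPGroup' ⟨x, hx⟩
  have ha' : x ^ (p ^ a) = 1 := by
    have h5 := congrArg Subtype.val ha
    simpa using h5
  have hkM := hcomm y hy x hx
  have hk : (y⁻¹ * (x * y * x⁻¹)) ^ Nat.card c.N = 1 := by
    have h5 : (⟨y⁻¹ * (x * y * x⁻¹), hMN hkM⟩ : ↥c.N) ^ Nat.card ↥c.N = 1 := pow_card_eq_one'
    have h6 := congrArg Subtype.val h5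
    rw [Subgroup.coe_pow, Subgroup.coe_one] at h6
    exact h6
  exact comm_of_twisted a ha' _ c.hNp hk (hcent _ hkM x hx).symm

theorem Cfg.exists_q (c : Cfg p X) : ∃ q a : ℕ, q.Prime ∧ Nat.card c.N = q ^ a := by
  by_contra hcon
  have hno : ∀ q : ℕ, q.Prime → ∀ Q : Sylow q ↥c.N, (Q : Subgroup ↥c.N) ≠ ⊤ := by
    intro q hq Q hQ
    haveI : Fact q.Prime := ⟨hq⟩
    apply hcon
    refine ⟨q, (Nat.card ↥c.N).factorization q, hq, ?_⟩
    rw [← Sylow.card_eq_multiplicity Q, hQ, Subgroup.card_top]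
  apply c.not_cent
  haveI := c.nN
  letI : MulDistribMulAction ↥(c.P : Subgroup X) ↥c.N :=
    MulDistribMulAction.compHom ↥c.N
      ((MulAut.conjNormal (H := c.N)).comp (c.P : Subgroup X).subtype)
  have hact : ∀ (x : ↥(c.P : Subgroup X)) (y : ↥c.N),
      ((x • y : ↥c.N) : X) = (x : X) * (y : X) * (x : X)⁻¹ := by
    intro x y
    exact MulAut.conjNormal_apply (x : X) y
  have hidx : ((Subgroup.centralizer ((c.P : Subgroup X) : Set X)).subgroupOf c.N).index = 1 := by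
    rw [Nat.eq_one_iff_not_exists_prime_dvd]
    intro q hq hdvd
    haveI : Fact q.Prime := ⟨hq⟩
    have hnd : ¬ p ∣ Nat.card (Sylow q ↥c.N) := by
      obtain ⟨Q₀⟩ : Nonempty (Sylow q ↥c.N) := inferInstance
      intro h
      exact c.hNp (dvd_trans h (dvd_trans (Sylow.card_dvd_index Q₀) (Subgroup.index_dvd_card _)))
    obtain ⟨Q, hQ⟩ :=
      c.P.isPGroup'.nonempty_fixed_point_of_prime_not_dvd_card (Sylow q ↥c.N) hnd
    have hfix : ∀ x : ↥(c.P : Subgroup X), x • Q = Q := MulAction.mem_fixedPoints.mp hQ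
    have hMN : (Q : Subgroup ↥c.N).map c.N.subtype ≤ c.N := Subgroup.map_subtype_le _
    have hMne : (Q : Subgroup ↥c.N).map c.N.subtype ≠ c.N := by
      intro heq
      apply hno q hq Q
      rw [eq_top_iff]
      intro y _
      have hy : (y : X) ∈ (Q : Subgroup ↥c.N).map c.N.subtype := by rw [heq]; exact y.2
      obtain ⟨y', hy', hyy⟩ := Subgroup.mem_map.mp hy
      have hyeq : y' = y := Subtype.ext hyy
      rw [← hyeq]; exact hy'
    have hMinv : ∀ x ∈ (c.P : Subgroup X), ∀ m ∈ (Q : Subgroup ↥c.N).map c.N.subtype,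
        x * m * x⁻¹ ∈ (Q : Subgroup ↥c.N).map c.N.subtype := by
      intro x hx m hm
      obtain ⟨y, hy, rfl⟩ := Subgroup.mem_map.mp hm
      have h1 : (⟨x, hx⟩ : ↥(c.P : Subgroup X)) • y
          ∈ ((⟨x, hx⟩ : ↥(c.P : Subgroup X)) • (Q : Subgroup ↥c.N)) :=
        Subgroup.smul_mem_pointwise_smul y _ _ hy
      rw [← Sylow.pointwise_smul_def, hfix ⟨x, hx⟩] at h1
      exact Subgroup.mem_map.mpr ⟨_, h1, hact ⟨x, hx⟩ y⟩
    have hcent := c.cent_of_proper _ hMN hMne hMinv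
    have hle : (Q : Subgroup ↥c.N)
        ≤ (Subgroup.centralizer ((c.P : Subgroup X) : Set X)).subgroupOf c.N := by
      intro y hy
      rw [Subgroup.mem_subgroupOf, Subgroup.mem_centralizer_iff]
      intro x hx
      exact (hcent (y : X) (Subgroup.mem_map.mpr ⟨y, hy, rfl⟩) x hx).symm
    exact Q.not_dvd_index (dvd_trans hdvd (Subgroup.index_dvd_of_le hle))
  rw [Subgroup.index_eq_one] at hidx
  intro y hy x hx
  have h1 : (⟨y, hy⟩ : ↥c.N)
      ∈ (Subgroup.centralizer ((c.P : Subgroup X) : Set X)).subgroupOf c.N := by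
    rw [hidx]; exact Subgroup.mem_top _
  rw [Subgroup.mem_subgroupOf, Subgroup.mem_centralizer_iff] at h1
  exact h1 x hx

theorem Cfg.comm_ne (c : Cfg p X) : ⁅c.N, c.N⁆ ≠ c.N := by
  obtain ⟨q, a, hq, hcard⟩ := c.exists_q
  haveI : Fact q.Prime := ⟨hq⟩
  haveI : Group.IsNilpotent ↥c.N := (IsPGroup.of_card hcard).isNilpotent
  haveI : Nontrivial ↥c.N := by
    by_contra hnt
    rw [not_nontrivial_iff_subsingleton] at hnt
    apply c.not_cent
    intro y hy x hx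
    have h1 : (⟨y, hy⟩ : ↥c.N) = 1 := Subsingleton.elim _ _
    have hy1 : y = 1 := congrArg Subtype.val h1
    rw [hy1, mul_one, one_mul]
  have h1 := Group.IsSolvable.commutator_lt_top_of_nontrivial ↥c.N
  intro heq
  apply h1.ne
  apply Subgroup.map_injective c.N.subtype_injective
  rw [Subgroup.map_subtype_commutator, heq, ← MonoidHom.range_eq_map, Subgroup.range_subtype]

theorem Cfg.comm_cent (c : Cfg p X) (a : X) (ha : a ∈ c.N) (b : X) (hb : b ∈ c.N) (x : X)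
    (hx : x ∈ (c.P : Subgroup X)) : x * (a * b * a⁻¹ * b⁻¹) = (a * b * a⁻¹ * b⁻¹) * x := by
  haveI := c.nN
  have hle : ⁅c.N, c.N⁆ ≤ c.N := Subgroup.commutator_le_left c.N c.N
  have hinv : ∀ x ∈ (c.P : Subgroup X), ∀ m ∈ ⁅c.N, c.N⁆, x * m * x⁻¹ ∈ ⁅c.N, c.N⁆ := by
    intro x _ m hm
    exact (Subgroup.commutator_normal c.N c.N).conj_mem m hm x
  have hmem : a * b * a⁻¹ * b⁻¹ ∈ ⁅c.N, c.N⁆ := by
    have h2 : ⁅a, b⁆ ∈ ⁅c.N, c.N⁆ := Subgroup.commutator_mem_commutator ha hb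
    rwa [commutatorElement_def] at h2
  exact (c.cent_of_proper _ hle c.comm_ne hinv (a * b * a⁻¹ * b⁻¹) hmem x hx).symm

theorem Cfg.cent_le_center (c : Cfg p X) (z : X) (hz : z ∈ c.N)
    (hzc : ∀ x ∈ (c.P : Subgroup X), x * z = z * x) (y : X) (hy : y ∈ c.N) : y * z = z * y := by
  have hM : c.N ⊓ Subgroup.centralizer ({z} : Set X) = c.N := by
    apply c.gen _ inf_le_left
    · intro x hx m hm
      obtain ⟨hmN, hmz⟩ := Subgroup.mem_inf.mp hm
      refine Subgroup.mem_inf.mpr ⟨c.nN.conj_mem m hmN x, ?_⟩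
      rw [Subgroup.mem_centralizer_iff] at hmz ⊢
      intro w hw
      rw [Set.mem_singleton_iff.mp hw]
      have h1 : z * m = m * z := hmz z rfl
      have h2 : x * z = z * x := hzc x hx
      have h3 : x⁻¹ * z = z * x⁻¹ := by
        calc x⁻¹ * z = x⁻¹ * (z * x) * x⁻¹ := by group
          _ = x⁻¹ * (x * z) * x⁻¹ := by rw [h2]
          _ = z * x⁻¹ := by group
      calc z * (x * m * x⁻¹) = (z * x) * m * x⁻¹ := by group
        _ = (x * z) * m * x⁻¹ := by rw [h2]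
        _ = x * (z * m) * x⁻¹ := by group
        _ = x * (m * z) * x⁻¹ := by rw [h1]
        _ = x * m * (z * x⁻¹) := by group
        _ = x * m * (x⁻¹ * z) := by rw [h3]
        _ = x * m * x⁻¹ * z := by group
    · intro y hy x hx
      refine Subgroup.mem_inf.mpr ⟨?_, ?_⟩
      · exact c.N.mul_mem (c.N.inv_mem hy) (c.nN.conj_mem y hy x)
      · rw [Subgroup.mem_centralizer_iff]
        intro w hw
        rw [Set.mem_singleton_iff.mp hw]
        have h1 := c.comm_cent y hy z hz x hx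
        have h2 : x * z = z * x := hzc x hx
        have e1 : x * (y * z * y⁻¹) = (y * z * y⁻¹) * x := by
          calc x * (y * z * y⁻¹) = x * (y * z * y⁻¹ * z⁻¹) * z := by group
            _ = (y * z * y⁻¹ * z⁻¹) * x * z := by rw [h1]
            _ = (y * z * y⁻¹ * z⁻¹) * (x * z) := by group
            _ = (y * z * y⁻¹ * z⁻¹) * (z * x) := by rw [h2]
            _ = (y * z * y⁻¹) * x := by group
        have e2 : z * (y⁻¹ * x * y) = (y⁻¹ * x * y) * z := by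
          calc z * (y⁻¹ * x * y) = y⁻¹ * ((y * z * y⁻¹) * x) * y := by group
            _ = y⁻¹ * (x * (y * z * y⁻¹)) * y := by rw [e1]
            _ = (y⁻¹ * x * y) * z := by group
        have e3 : z * x⁻¹ = x⁻¹ * z := by
          calc z * x⁻¹ = x⁻¹ * (x * z) * x⁻¹ := by group
            _ = x⁻¹ * (z * x) * x⁻¹ := by rw [h2]
            _ = x⁻¹ * z := by group
        calc z * (y⁻¹ * (x * y * x⁻¹)) = z * (y⁻¹ * x * y) * x⁻¹ := by group
          _ = (y⁻¹ * x * y) * z * x⁻¹ := by rw [e2]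
          _ = (y⁻¹ * x * y) * (z * x⁻¹) := by group
          _ = (y⁻¹ * x * y) * (x⁻¹ * z) := by rw [e3]
          _ = y⁻¹ * (x * y * x⁻¹) * z := by group
  have hy' : y ∈ c.N ⊓ Subgroup.centralizer ({z} : Set X) := by rw [hM]; exact hy
  have h := Subgroup.mem_centralizer_iff.mp (Subgroup.mem_inf.mp hy').2 z rfl
  exact h.symm

theorem Cfg.comm_central (c : Cfg p X) (a : X) (ha : a ∈ c.N) (b : X) (hb : b ∈ c.N) (w : X)
    (hw : w ∈ c.N) : w * (a * b * a⁻¹ * b⁻¹) = (a * b * a⁻¹ * b⁻¹) * w := by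
  have hk : a * b * a⁻¹ * b⁻¹ ∈ c.N :=
    c.N.mul_mem (c.N.mul_mem (c.N.mul_mem ha hb) (c.N.inv_mem ha)) (c.N.inv_mem hb)
  exact c.cent_le_center _ hk (fun x hx => c.comm_cent a ha b hb x hx) w hw

theorem Cfg.center_cent (c : Cfg p X) (hna : ¬ ∀ a ∈ c.N, ∀ b ∈ c.N, a * b = b * a) (z : X)
    (hz : z ∈ c.N) (hzc : ∀ y ∈ c.N, y * z = z * y) (x : X) (hx : x ∈ (c.P : Subgroup X)) :
    x * z = z * x := by
  have hle : c.N ⊓ Subgroup.centralizer (c.N : Set X) ≤ c.N := inf_le_left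
  have hne : c.N ⊓ Subgroup.centralizer (c.N : Set X) ≠ c.N := by
    intro heq
    apply hna
    intro a ha b hb
    have ha' : a ∈ c.N ⊓ Subgroup.centralizer (c.N : Set X) := by rw [heq]; exact ha
    exact (Subgroup.mem_centralizer_iff.mp (Subgroup.mem_inf.mp ha').2 b hb).symm
  have hinv : ∀ x ∈ (c.P : Subgroup X), ∀ m ∈ c.N ⊓ Subgroup.centralizer (c.N : Set X),
      x * m * x⁻¹ ∈ c.N ⊓ Subgroup.centralizer (c.N : Set X) := by
    intro x hx m hm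
    obtain ⟨hmN, hmc⟩ := Subgroup.mem_inf.mp hm
    refine Subgroup.mem_inf.mpr ⟨c.nN.conj_mem m hmN x, ?_⟩
    rw [Subgroup.mem_centralizer_iff] at hmc ⊢
    intro y hy
    have hy' : x⁻¹ * y * x ∈ c.N := by
      have h0 := c.nN.conj_mem y hy x⁻¹
      rwa [inv_inv] at h0
    have h1 := hmc _ hy'
    calc y * (x * m * x⁻¹) = x * ((x⁻¹ * y * x) * m) * x⁻¹ := by group
      _ = x * (m * (x⁻¹ * y * x)) * x⁻¹ := by rw [h1]
      _ = x * m * x⁻¹ * y := by group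
  have hzM : z ∈ c.N ⊓ Subgroup.centralizer (c.N : Set X) := by
    refine Subgroup.mem_inf.mpr ⟨hz, ?_⟩
    rw [Subgroup.mem_centralizer_iff]
    intro y hy
    exact hzc y hy
  exact (c.cent_of_proper _ hle hne hinv z hzM x hx).symm

end Config

end Cfsg.Agent.Lib.helper29.FT
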