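import Mathlib
import Cfsg.Agent.Lib.helper29.ItoA2
import Cfsg.Agent.Lib.helper24.CharOdd
import Cfsg.Agent.Lib.helper24.CharClifford
import Cfsg.Agent.Lib.helper23.CharSchur

set_option autoImplicit false

namespace Cfsg.Agent.Lib.helper29.FT

open scoped ComplexConjugate
open Cfsg.Agent.Lib.helper24

universe u

section Rep

variable {Y : Type u} [Group Y] {V : Type*} [AddCommGroup V] [Module ℂ V]

theorem rep_inv_mul (σ : Representation ℂ Y V) (a : Y) : σ a⁻¹ * σ a = 1 := by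
  rw [← map_mul, inv_mul_cancel, map_one]

theorem rep_mul_inv (σ : Representation ℂ Y V) (a : Y) : σ a * σ a⁻¹ = 1 := by
  rw [← map_mul, mul_inv_cancel, map_one]

/-- Elements acting by operators commuting with the whole image. -/
def zsub (σ : Representation ℂ Y V) : Subgroup Y where
  carrier := {g | ∀ y, σ g * σ y = σ y * σ g}
  one_mem' := by
    intro y
    rw [map_one, one_mul, mul_one]
  mul_mem' := by
    intro a b ha hb y
    rw [map_mul, mul_assoc, hb y, ← mul_assoc, ha y, mul_assoc]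
  inv_mem' := by
    intro a ha y
    have h := ha y
    calc σ a⁻¹ * σ y = σ a⁻¹ * σ y * (σ a * σ a⁻¹) := by rw [rep_mul_inv, mul_one]
      _ = σ a⁻¹ * (σ y * σ a) * σ a⁻¹ := by simp only [mul_assoc]
      _ = σ a⁻¹ * (σ a * σ y) * σ a⁻¹ := by rw [h]
      _ = (σ a⁻¹ * σ a) * σ y * σ a⁻¹ := by simp only [mul_assoc]
      _ = σ y * σ a⁻¹ := by rw [rep_inv_mul, one_mul]

theorem mem_zsub (σ : Representation ℂ Y V) (g : Y) :
    g ∈ zsub σ ↔ ∀ y, σ g * σ y = σ y * σ g := Iff.rfl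

theorem rep_comm_of_comm_one (σ : Representation ℂ Y V) (a b : Y)
    (h : σ (a * b * a⁻¹ * b⁻¹) = 1) : σ a * σ b = σ b * σ a := by
  have e : a * b = (a * b * a⁻¹ * b⁻¹) * (b * a) := by group
  calc σ a * σ b = σ (a * b) := (map_mul σ a b).symm
    _ = σ ((a * b * a⁻¹ * b⁻¹) * (b * a)) := by rw [← e]
    _ = σ b * σ a := by rw [map_mul, h, one_mul, map_mul]

theorem rep_comm_one_of_comm (σ : Representation ℂ Y V) (a b : Y)
    (h : σ a * σ b = σ b * σ a) : σ (a * b * a⁻¹ * b⁻¹) = 1 := by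
  rw [map_mul, map_mul, map_mul, h, mul_assoc (σ b), rep_mul_inv, mul_one, rep_mul_inv]

end Rep

theorem list_single_le {α : Type*} (l : List α) (f : α → ℝ) (h0 : ∀ a ∈ l, 0 ≤ f a) (a : α)
    (ha : a ∈ l) : f a ≤ (l.map f).sum := by
  induction l with
  | nil => simp at ha
  | cons b l ih =>
    rw [List.map_cons, List.sum_cons]
    have hb : 0 ≤ f b := h0 b (List.mem_cons.mpr (Or.inl rfl))
    have hl : 0 ≤ (l.map f).sum := List.sum_nonneg (by
      intro z hz
      obtain ⟨w, hw, rfl⟩ := List.mem_map.mp hz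
      exact h0 w (List.mem_cons_of_mem _ hw))
    rcases List.mem_cons.mp ha with h | h
    · rw [h]; linarith
    · have h2 := ih (fun w hw => h0 w (List.mem_cons_of_mem _ hw)) h
      linarith

theorem irr_mul_of_one {Y : Type u} [Group Y] (ψ : Cfsg.IrrCharacter Y) (h1 : ψ.1 1 = 1)
    (a b : Y) : ψ.1 (a * b) = ψ.1 a * ψ.1 b := by
  obtain ⟨n, ρ, hirr, hρ⟩ := ψ.2
  have hfr : Module.finrank ℂ (Fin n → ℂ) = 1 := by
    have h2 : ρ.character 1 = 1 := by rw [hρ]; exact h1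
    rw [Representation.char_one] at h2
    exact_mod_cast h2
  rw [← hρ]
  exact char_mul_of_finrank_one hfr ρ a b

/-- Kernel of a multiplicative function on a subgroup, as a subgroup of the big group. -/
def kerSub {X : Type u} [Group X] (N : Subgroup X) (φ : ↥N → ℂ)
    (hmul : ∀ a b : ↥N, φ (a * b) = φ a * φ b) (h1 : φ 1 = 1) : Subgroup X where
  carrier := {y | ∃ h : y ∈ N, φ ⟨y, h⟩ = 1}
  one_mem' := ⟨N.one_mem, h1⟩
  mul_mem' := by
    rintro a b ⟨ha, ha1⟩ ⟨hb, hb1⟩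
    refine ⟨N.mul_mem ha hb, ?_⟩
    have e : (⟨a * b, N.mul_mem ha hb⟩ : ↥N) = ⟨a, ha⟩ * ⟨b, hb⟩ := rfl
    rw [e, hmul, ha1, hb1, one_mul]
  inv_mem' := by
    rintro a ⟨ha, ha1⟩
    refine ⟨N.inv_mem ha, ?_⟩
    have e : (⟨a⁻¹, N.inv_mem ha⟩ : ↥N) = (⟨a, ha⟩ : ↥N)⁻¹ := rfl
    have h2 : φ ((⟨a, ha⟩ : ↥N)⁻¹ * ⟨a, ha⟩) = φ (⟨a, ha⟩ : ↥N)⁻¹ * φ ⟨a, ha⟩ := hmul _ _
    rw [inv_mul_cancel, h1, ha1, mul_one] at h2
    rw [e]; exact h2.symm

theorem mem_kerSub {X : Type u} [Group X] (N : Subgroup X) (φ : ↥N → ℂ)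
    (hmul : ∀ a b : ↥N, φ (a * b) = φ a * φ b) (h1 : φ 1 = 1) (y : X) :
    y ∈ kerSub N φ hmul h1 ↔ ∃ h : y ∈ N, φ ⟨y, h⟩ = 1 := Iff.rfl

theorem irr_linear_of_comm {Y : Type u} [Group Y] [Finite Y] (n : ℕ)
    (σ : Representation ℂ Y (Fin n → ℂ)) [σ.IsIrreducible]
    (hc : ∀ a b, σ a * σ b = σ b * σ a) : σ.character 1 = 1 := by
  classical
  have := Fintype.ofFinite Y
  have hirr : Cfsg.IsIrrCharacter Y σ.character := ⟨n, σ, inferInstance, rfl⟩
  have hchar : Cfsg.IsCharacter Y σ.character := ⟨n, σ, rfl⟩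
  have hn : n ≠ 0 := Cfsg.Agent.Lib.helper23.irr_dim_ne_zero n σ
  have h1n : σ.character 1 = (n : ℂ) := by
    rw [Representation.char_one, Module.finrank_fin_fun]
  have hsc : ∀ a, ∃ c : ℂ, σ a = c • LinearMap.id := fun a =>
    Cfsg.Agent.Lib.helper23.irr_commuting_scalar n σ (σ a) (fun g => hc a g)
  choose c hcs using hsc
  have hθ : ∀ a, σ.character a = c a * n := by
    intro a
    have h1 : σ.character a = LinearMap.trace ℂ (Fin n → ℂ) (σ a) := rfl
    rw [h1, hcs a, map_smul, LinearMap.trace_id, smul_eq_mul, Module.finrank_fin_fun]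
  have hn' : (0 : ℝ) < n := by exact_mod_cast Nat.pos_of_ne_zero hn
  have hnorm_le : ∀ a, ‖c a‖ ≤ 1 := by
    intro a
    have h1 := isCharacter_norm_le hchar a
    rw [hθ a, h1n, norm_mul, Complex.natCast_re, Complex.norm_natCast] at h1
    by_contra hlt
    have hlt' : 1 < ‖c a‖ := not_le.mp hlt
    nlinarith
  have hinv : ∀ a, c a * c a⁻¹ = 1 := by
    intro a
    have h1 : σ a * σ a⁻¹ = 1 := rep_mul_inv σ a
    rw [hcs a, hcs a⁻¹] at h1
    have h2 := congrFun (LinearMap.congr_fun h1 (fun _ => (1:ℂ))) ⟨0, Nat.pos_of_ne_zero hn⟩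
    have h3 : c a⁻¹ * c a = 1 := by simpa using h2
    rw [mul_comm]; exact h3
  have hone : ∀ a, ‖c a‖ = 1 := by
    intro a
    have h2 : ‖c a‖ * ‖c a⁻¹‖ = 1 := by rw [← norm_mul, hinv a, norm_one]
    have h3 := hnorm_le a
    have h4 := hnorm_le a⁻¹
    have h5 := norm_nonneg (c a)
    apply le_antisymm h3
    nlinarith
  have hsum := isIrrCharacter_inner_self hirr
  unfold Cfsg.classInner at hsum
  have h5 : ∀ a : Y, σ.character a * conj (σ.character a) = ((n : ℂ)) ^ 2 := by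
    intro a
    rw [Complex.mul_conj, Complex.normSq_eq_norm_sq, hθ a, norm_mul, hone a, one_mul,
      Complex.norm_natCast]
    simp
  rw [Finset.sum_congr rfl (fun a _ => h5 a), Finset.sum_const, Finset.card_univ, nsmul_eq_mul,
    Nat.card_eq_fintype_card] at hsum
  have hcard : (Fintype.card Y : ℂ) ≠ 0 := by
    exact_mod_cast Fintype.card_ne_zero
  rw [inv_mul_cancel_left₀ hcard] at hsum
  have hn2 : n ^ 2 = 1 := by exact_mod_cast hsum
  have hn1 : n = 1 := by
    rcases Nat.lt_or_ge n 2 with h | h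
    · omega
    · nlinarith
  rw [h1n, hn1, Nat.cast_one]

section Deg

variable {X : Type u} [Group X] [Finite X] {p : ℕ} [Fact p.Prime]

theorem Cfg.nonlin_degree (c : Cfg p X) (θ : Cfsg.IrrCharacter ↥c.N) (h1 : θ.1 1 ≠ 1) :
    ∃ t : ℕ, θ.1 1 = (t : ℂ) ∧ 1 < t ∧ p ∣ t ^ 2 - 1 ∧ ∃ q a : ℕ, q.Prime ∧ t = q ^ a := by
  classical
  have := Fintype.ofFinite ↥c.N
  obtain ⟨n, σ, hirr, hσ⟩ := θ.2
  haveI := hirr
  obtain ⟨t, ht0, ht⟩ := isIrrCharacter_one θ.2
  have ht1 : t ≠ 1 := by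
    intro h; apply h1; rw [ht, h, Nat.cast_one]
  have hθc : Cfsg.IsCharacter ↥c.N θ.1 := isCharacter_of_isIrrCharacter θ.2
  have hz_ne : ∃ a b : ↥c.N, σ a * σ b ≠ σ b * σ a := by
    by_contra hcon
    apply h1
    rw [← hσ]
    apply irr_linear_of_comm n σ
    intro a b
    by_contra hab
    exact hcon ⟨a, b, hab⟩
  have hna : ¬ ∀ a ∈ c.N, ∀ b ∈ c.N, a * b = b * a := by
    intro hab
    obtain ⟨a, b, hab'⟩ := hz_ne
    apply hab'
    rw [← map_mul, ← map_mul]
    congr 1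
    exact Subtype.ext (hab a a.2 b b.2)
  have hzc : ∀ g : ↥c.N, (∀ y, σ g * σ y = σ y * σ g) → g ∈ Subgroup.center ↥c.N := by
    have hMN : (zsub σ).map c.N.subtype ≤ c.N := Subgroup.map_subtype_le _
    have hMne : (zsub σ).map c.N.subtype ≠ c.N := by
      intro heq
      obtain ⟨a, b, hab'⟩ := hz_ne
      apply hab'
      have ha : (a : X) ∈ (zsub σ).map c.N.subtype := by rw [heq]; exact a.2
      obtain ⟨a', ha', haa⟩ := Subgroup.mem_map.mp ha
      have haeq : a' = a := Subtype.ext haa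
      rw [← haeq]; exact (mem_zsub σ a').mp ha' b
    have hMinv : ∀ x ∈ (c.P : Subgroup X), ∀ m ∈ (zsub σ).map c.N.subtype,
        x * m * x⁻¹ ∈ (zsub σ).map c.N.subtype := by
      intro x hx m hm
      obtain ⟨g, hg, rfl⟩ := Subgroup.mem_map.mp hm
      refine Subgroup.mem_map.mpr ⟨⟨x * g * x⁻¹, c.nN.conj_mem g g.2 x⟩, ?_, rfl⟩
      rw [mem_zsub]
      intro y
      have hy' : x⁻¹ * (y : X) * x ∈ c.N := by
        have h0 := c.nN.conj_mem y y.2 x⁻¹
        rwa [inv_inv] at h0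
      have hD := c.comm_cent (g : X) g.2 _ hy' x hx
      have hk : (⟨x * g * x⁻¹, c.nN.conj_mem g g.2 x⟩ : ↥c.N) * y
            * (⟨x * g * x⁻¹, c.nN.conj_mem g g.2 x⟩ : ↥c.N)⁻¹ * y⁻¹
          = g * ⟨x⁻¹ * (y : X) * x, hy'⟩ * g⁻¹ * (⟨x⁻¹ * (y : X) * x, hy'⟩ : ↥c.N)⁻¹ := by
        apply Subtype.ext
        show (x * (g : X) * x⁻¹) * (y : X) * (x * (g : X) * x⁻¹)⁻¹ * (y : X)⁻¹
          = (g : X) * (x⁻¹ * (y : X) * x) * (g : X)⁻¹ * (x⁻¹ * (y : X) * x)⁻¹
        calc (x * (g : X) * x⁻¹) * (y : X) * (x * (g : X) * x⁻¹)⁻¹ * (y : X)⁻¹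
            = x * ((g : X) * (x⁻¹ * (y : X) * x) * (g : X)⁻¹ * (x⁻¹ * (y : X) * x)⁻¹) * x⁻¹ := by
              group
          _ = ((g : X) * (x⁻¹ * (y : X) * x) * (g : X)⁻¹ * (x⁻¹ * (y : X) * x)⁻¹) * x * x⁻¹ := by
              rw [hD]
          _ = (g : X) * (x⁻¹ * (y : X) * x) * (g : X)⁻¹ * (x⁻¹ * (y : X) * x)⁻¹ := by
              rw [mul_inv_cancel_right]
      apply rep_comm_of_comm_one
      rw [hk]
      exact rep_comm_one_of_comm σ _ _ ((mem_zsub σ g).mp hg _)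
    have hcent := c.cent_of_proper _ hMN hMne hMinv
    intro g hg
    rw [Subgroup.mem_center_iff]
    intro y
    apply Subtype.ext
    show (y : X) * (g : X) = (g : X) * (y : X)
    exact c.cent_le_center (g : X) g.2
      (fun x hx => (hcent (g : X)
        (Subgroup.mem_map.mpr ⟨g, (mem_zsub σ g).mpr hg, rfl⟩) x hx).symm) (y : X) y.2
  have hvan : ∀ g : ↥c.N, g ∉ Subgroup.center ↥c.N → θ.1 g = 0 := by
    intro g hg
    have h2 : ¬ ∀ y, σ g * σ y = σ y * σ g := fun h => hg (hzc g h)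
    obtain ⟨y, hy⟩ := not_forall.mp h2
    have hkc : y * g * y⁻¹ * g⁻¹ ∈ Subgroup.center ↥c.N := by
      rw [Subgroup.mem_center_iff]
      intro w
      apply Subtype.ext
      exact c.comm_central (y : X) y.2 (g : X) g.2 (w : X) w.2
    obtain ⟨cc, hcc, _⟩ := Cfsg.Agent.Lib.helper23.isIrrCharacter_central θ.2 _ hkc
    have h3 : θ.1 g = cc * θ.1 g := by
      have h4 := isCharacter_conj_class hθc g y
      rw [← hcc g]
      have h5 : y * g * y⁻¹ * g⁻¹ * g = y * g * y⁻¹ := by group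
      rw [h5, h4]
    have hcc1 : cc ≠ 1 := by
      intro hc1
      apply hy
      have h5 : θ.1 (y * g * y⁻¹ * g⁻¹) = θ.1 1 := by
        have h6 := hcc 1
        rw [mul_one, hc1, one_mul] at h6
        exact h6
      have h6 : σ (y * g * y⁻¹ * g⁻¹) = 1 := by
        apply (char_eq_finrank_iff σ _).mp
        rw [← Representation.char_one σ, hσ]
        exact h5
      exact (rep_comm_of_comm_one σ y g h6).symm
    have h7 : (1 - cc) * θ.1 g = 0 := by
      rw [sub_mul, one_mul, ← h3, sub_self]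
    rcases mul_eq_zero.mp h7 with h | h
    · exact absurd (sub_eq_zero.mp h).symm hcc1
    · exact h
  have hcen : ∀ g : ↥c.N, g ∈ Subgroup.center ↥c.N →
      Complex.normSq (θ.1 g) = (t : ℝ) ^ 2 := by
    intro g hg
    obtain ⟨cc, hcc, hpow⟩ := Cfsg.Agent.Lib.helper23.isIrrCharacter_central θ.2 g hg
    have h2 : θ.1 g = cc * t := by
      have h3 := hcc 1
      rw [mul_one, ht] at h3
      exact h3
    have h3 : ‖cc‖ = 1 :=
      Complex.norm_eq_one_of_pow_eq_one (hpow (Nat.card ↥c.N) pow_card_eq_one') Nat.card_pos.ne'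
    rw [h2, Complex.normSq_eq_norm_sq, norm_mul, h3, one_mul, Complex.norm_natCast]
  have hsumC : (Nat.card ↥c.N : ℝ) = (Nat.card (Subgroup.center ↥c.N) : ℝ) * (t : ℝ) ^ 2 := by
    have h2 := isIrrCharacter_inner_self θ.2
    unfold Cfsg.classInner at h2
    have h3 : ∀ g : ↥c.N, θ.1 g * conj (θ.1 g)
        = ((ind (g ∈ Subgroup.center ↥c.N) * (t : ℝ) ^ 2 : ℝ) : ℂ) := by
      intro g
      rw [Complex.mul_conj]
      by_cases hg : g ∈ Subgroup.center ↥c.N
      · rw [hcen g hg, ind_true hg, one_mul]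
      · rw [hvan g hg, ind_false hg, zero_mul, Complex.normSq_zero]
    rw [Finset.sum_congr rfl (fun g _ => h3 g), ← Complex.ofReal_sum, ← Finset.sum_mul,
      sum_ind_card, Nat.card_eq_fintype_card] at h2
    have hcard : (Fintype.card ↥c.N : ℂ) ≠ 0 := by exact_mod_cast Fintype.card_ne_zero
    have h4 : ((Fintype.card (Subgroup.center ↥c.N) * (t : ℝ) ^ 2 : ℝ) : ℂ)
        = (Fintype.card ↥c.N : ℂ) := by
      have h5 := congrArg (fun z : ℂ => (Fintype.card ↥c.N : ℂ) * z) h2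
      simp only [mul_one] at h5
      rw [mul_inv_cancel_left₀ hcard] at h5
      exact h5
    rw [Nat.card_eq_fintype_card, Nat.card_eq_fintype_card]
    have h6 : ((Fintype.card (Subgroup.center ↥c.N) * (t : ℝ) ^ 2 : ℝ) : ℂ)
        = ((Fintype.card ↥c.N : ℝ) : ℂ) := by
      rw [h4]; simp
    exact (Complex.ofReal_injective h6).symm
  have hmod : Nat.card ↥c.N ≡ Nat.card (Subgroup.center ↥c.N) [MOD p] := by
    haveI := c.nN
    letI : MulDistribMulAction ↥(c.P : Subgroup X) ↥c.N :=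
      MulDistribMulAction.compHom ↥c.N
        ((MulAut.conjNormal (H := c.N)).comp (c.P : Subgroup X).subtype)
    have hact : ∀ (x : ↥(c.P : Subgroup X)) (y : ↥c.N),
        ((x • y : ↥c.N) : X) = (x : X) * (y : X) * (x : X)⁻¹ := by
      intro x y
      exact MulAut.conjNormal_apply (x : X) y
    have h2 := c.P.isPGroup'.card_modEq_card_fixedPoints ↥c.N
    have h3 : Nat.card (MulAction.fixedPoints ↥(c.P : Subgroup X) ↥c.N)
        = Nat.card (Subgroup.center ↥c.N) := by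
      refine Nat.card_congr (Equiv.subtypeEquivRight
        (p := fun y => y ∈ MulAction.fixedPoints ↥(c.P : Subgroup X) ↥c.N)
        (q := fun y => y ∈ Subgroup.center ↥c.N) ?_)
      intro y
      rw [MulAction.mem_fixedPoints, Subgroup.mem_center_iff]
      constructor
      · intro h w
        apply Subtype.ext
        show (w : X) * (y : X) = (y : X) * (w : X)
        refine c.cent_le_center (y : X) y.2 ?_ (w : X) w.2
        intro x hx
        have h4 := congrArg Subtype.val (h ⟨x, hx⟩)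
        rw [hact] at h4
        have h5 : x * (y : X) * x⁻¹ = (y : X) := h4
        calc x * (y : X) = x * (y : X) * x⁻¹ * x := by group
          _ = (y : X) * x := by rw [h5]
      · intro h x
        apply Subtype.ext
        rw [hact]
        have h4 := c.center_cent hna (y : X) y.2
          (fun w hw => congrArg Subtype.val (h ⟨w, hw⟩)) (x : X) x.2
        rw [h4, mul_inv_cancel_right]
    rw [h3] at h2
    exact h2
  have hN : Nat.card ↥c.N = Nat.card (Subgroup.center ↥c.N) * t ^ 2 := by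
    exact_mod_cast hsumC
  have hZle : Nat.card (Subgroup.center ↥c.N) ≤ Nat.card ↥c.N := by
    rw [hN]; exact Nat.le_mul_of_pos_right _ (pow_pos ht0 2)
  have hdvd : p ∣ Nat.card ↥c.N - Nat.card (Subgroup.center ↥c.N) :=
    (Nat.modEq_iff_dvd' hZle).mp hmod.symm
  have hdvd2 : p ∣ Nat.card (Subgroup.center ↥c.N) * (t ^ 2 - 1) := by
    rw [Nat.mul_sub_one, ← hN]; exact hdvd
  have hp : p.Prime := Fact.out
  have hpt : p ∣ t ^ 2 - 1 := by
    rcases (Nat.Prime.dvd_mul hp).mp hdvd2 with h | h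
    · exact absurd (dvd_trans h (Subgroup.card_subgroup_dvd_card _)) c.hNp
    · exact h
  refine ⟨t, ht, by omega, hpt, ?_⟩
  obtain ⟨q, a, hq, hcard⟩ := c.exists_q
  obtain ⟨d, hd, hdvd3⟩ := irr_degree_dvd_card θ
  have hdt : d = t := by
    rw [ht] at hd
    exact_mod_cast hd.symm
  rw [hdt, hcard] at hdvd3
  obtain ⟨m, _, hm⟩ := (Nat.dvd_prime_pow hq).mp hdvd3
  exact ⟨q, m, hq, hm⟩

end Deg

end Cfsg.Agent.Lib.helper29.FT
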