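import Mathlib
import Cfsg.Agent.Lib.helper29.ItoB

set_option autoImplicit false

namespace Cfsg.Agent.Lib.helper29.FT

open scoped ComplexConjugate
open Cfsg.Agent.Lib.helper24

universe u

section Deg

variable {X : Type u} [Group X] [Finite X] {p : ℕ} [Fact p.Prime]

theorem Cfg.constituent_inv (c : Cfg p X) (χ : X → ℂ) (hχ : Cfsg.IsCharacter X χ)
    (l : List (Cfsg.IrrCharacter ↥c.N))
    (hl : (fun y : ↥c.N => χ y) = (l.map (fun ψ : Cfsg.IrrCharacter ↥c.N => ψ.1)).sum)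
    (hlen : l.length < p) (φ : Cfsg.IrrCharacter ↥c.N) (hφ : φ ∈ l) (x : X)
    (hx : x ∈ (c.P : Subgroup X)) (y : X) (hy : y ∈ c.N) :
    φ.1 ⟨x * y * x⁻¹, c.nN.conj_mem y hy x⟩ = φ.1 ⟨y, hy⟩ := by
  classical
  have := Fintype.ofFinite ↥c.N
  haveI := c.nN
  letI : MulDistribMulAction ↥(c.P : Subgroup X) ↥c.N :=
    MulDistribMulAction.compHom ↥c.N
      ((MulAut.conjNormal (H := c.N)).comp (c.P : Subgroup X).subtype)
  have hact : ∀ (x : ↥(c.P : Subgroup X)) (y : ↥c.N),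
      ((x • y : ↥c.N) : X) = (x : X) * (y : X) * (x : X)⁻¹ := by
    intro x y
    exact MulAut.conjNormal_apply (x : X) y
  letI : MulAction ↥(c.P : Subgroup X) (↥c.N → ℂ) := arrowAction
  have hsmul : ∀ (x : ↥(c.P : Subgroup X)) (f : ↥c.N → ℂ) (y : ↥c.N),
      (x • f) y = f (x⁻¹ • y) := fun _ _ _ => rfl
  have hSfin : ((↑(l.map (fun ψ : Cfsg.IrrCharacter ↥c.N => ψ.1)).toFinset :
      Set (↥c.N → ℂ))).Finite := Finset.finite_toSet _
  have hScard : Nat.card (↑(l.map (fun ψ : Cfsg.IrrCharacter ↥c.N => ψ.1)).toFinset :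
      Set (↥c.N → ℂ)) ≤ l.length := by
    rw [Nat.card_coe_set_eq, Set.ncard_coe_finset]
    have h1 := List.toFinset_card_le (l.map (fun ψ : Cfsg.IrrCharacter ↥c.N => ψ.1))
    rw [List.length_map] at h1
    exact h1
  have hSinv : ∀ (x : ↥(c.P : Subgroup X)) (ψ : Cfsg.IrrCharacter ↥c.N), ψ ∈ l →
      x • ψ.1 ∈ (↑(l.map (fun ψ : Cfsg.IrrCharacter ↥c.N => ψ.1)).toFinset :
        Set (↥c.N → ℂ)) := by
    intro x ψ hψ
    have he : x • ψ.1 = ψ.1 ∘ (MulAut.conjNormal (H := c.N) ((x⁻¹ : ↥(c.P : Subgroup X)) : X)) :=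
      rfl
    have hirr' : Cfsg.IsIrrCharacter ↥c.N
        (ψ.1 ∘ (MulAut.conjNormal (H := c.N) ((x⁻¹ : ↥(c.P : Subgroup X)) : X))) :=
      isIrrCharacter_comp_equiv _ ψ.2
    have hinvχ : (fun y : ↥c.N => χ y)
        ∘ (MulAut.conjNormal (H := c.N) ((x⁻¹ : ↥(c.P : Subgroup X)) : X))
        = (fun y : ↥c.N => χ y) := by
      funext y
      show χ ((MulAut.conjNormal (H := c.N) ((x⁻¹ : ↥(c.P : Subgroup X)) : X) y : ↥c.N) : X)
        = χ (y : X)
      rw [MulAut.conjNormal_apply]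
      exact isCharacter_conj_class hχ _ _
    have hcount : Cfsg.classInner (l.map (fun ψ : Cfsg.IrrCharacter ↥c.N => ψ.1)).sum
          (ψ.1 ∘ (MulAut.conjNormal (H := c.N) ((x⁻¹ : ↥(c.P : Subgroup X)) : X)))
        = Cfsg.classInner (l.map (fun ψ : Cfsg.IrrCharacter ↥c.N => ψ.1)).sum ψ.1 := by
      rw [← hl]
      calc Cfsg.classInner (fun y : ↥c.N => χ y)
            (ψ.1 ∘ (MulAut.conjNormal (H := c.N) ((x⁻¹ : ↥(c.P : Subgroup X)) : X)))
          = Cfsg.classInner ((fun y : ↥c.N => χ y)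
              ∘ (MulAut.conjNormal (H := c.N) ((x⁻¹ : ↥(c.P : Subgroup X)) : X)))
            (ψ.1 ∘ (MulAut.conjNormal (H := c.N) ((x⁻¹ : ↥(c.P : Subgroup X)) : X))) := by
            rw [hinvχ]
        _ = Cfsg.classInner (fun y : ↥c.N => χ y) ψ.1 := classInner_comp_equiv _ _ _
    have h1 := classInner_irr_list l ⟨_, hirr'⟩
    have h2 := classInner_irr_list l ψ
    rw [hcount, h2] at h1
    have h3 : l.count ψ = l.count (⟨_, hirr'⟩ : Cfsg.IrrCharacter ↥c.N) := by exact_mod_cast h1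
    have h4 : 0 < l.count ψ := List.count_pos_iff.mpr hψ
    rw [h3] at h4
    have h5 := List.count_pos_iff.mp h4
    rw [he]
    simp only [Finset.mem_coe, List.mem_toFinset, List.mem_map]
    exact ⟨_, h5, rfl⟩
  have horb : MulAction.orbit ↥(c.P : Subgroup X) φ.1
      ⊆ (↑(l.map (fun ψ : Cfsg.IrrCharacter ↥c.N => ψ.1)).toFinset : Set (↥c.N → ℂ)) := by
    intro f hf
    obtain ⟨x', rfl⟩ := MulAction.mem_orbit_iff.mp hf
    exact hSinv x' φ hφ
  haveI : Finite ↥(MulAction.orbit ↥(c.P : Subgroup X) φ.1) := (hSfin.subset horb).to_subtype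
  obtain ⟨k, hk⟩ := c.P.isPGroup'.card_orbit φ.1
  have hle : Nat.card (MulAction.orbit ↥(c.P : Subgroup X) φ.1) ≤ l.length :=
    (Nat.card_mono hSfin horb).trans hScard
  have hk0 : k = 0 := by
    by_contra hk0
    have h1 : p ≤ p ^ k := Nat.le_self_pow hk0 p
    omega
  rw [hk0, pow_zero] at hk
  have hsub : Subsingleton ↥(MulAction.orbit ↥(c.P : Subgroup X) φ.1) :=
    (Nat.card_eq_one_iff_unique.mp hk).1
  have key : ∀ x' : ↥(c.P : Subgroup X), x' • φ.1 = φ.1 := by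
    intro x'
    have h1 : (⟨x' • φ.1, MulAction.mem_orbit _ _⟩ : ↥(MulAction.orbit ↥(c.P : Subgroup X) φ.1))
        = ⟨φ.1, MulAction.mem_orbit_self _⟩ := Subsingleton.elim _ _
    exact congrArg Subtype.val h1
  have h2 := congrFun (key (⟨x, hx⟩ : ↥(c.P : Subgroup X))⁻¹) ⟨y, hy⟩
  rw [hsmul, inv_inv] at h2
  have h3 : (⟨x, hx⟩ : ↥(c.P : Subgroup X)) • (⟨y, hy⟩ : ↥c.N)
      = ⟨x * y * x⁻¹, c.nN.conj_mem y hy x⟩ := Subtype.ext (hact _ _)
  rw [h3] at h2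
  exact h2

theorem Cfg.ito_min (c : Cfg p X) (χ : Cfsg.IrrCharacter X) (h1 : χ.1 1 ≠ 1) :
    ∃ t : ℕ, (t : ℝ) ≤ (χ.1 1).re ∧
      (p ≤ t ∨ (1 < t ∧ p ∣ t ^ 2 - 1 ∧ ∃ q a : ℕ, q.Prime ∧ t = q ^ a)) := by
  classical
  have := Fintype.ofFinite ↥c.N
  have hχc : Cfsg.IsCharacter X χ.1 := isCharacter_of_isIrrCharacter χ.2
  obtain ⟨l, hl⟩ := isCharacter_iff_exists_list.mp (isCharacter_restrict c.N hχc)
  have hdeg : (χ.1 1).re = (l.map (fun ψ : Cfsg.IrrCharacter ↥c.N => (ψ.1 1).re)).sum := by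
    have h2 := list_sum_additive (G := ↥c.N) (fun f => (f 1).re) (by simp) (fun f g => by simp) l
    rw [← hl] at h2
    exact h2
  have hnn : ∀ ψ : Cfsg.IrrCharacter ↥c.N, (1 : ℝ) ≤ (ψ.1 1).re := by
    intro ψ
    obtain ⟨m, hm0, hm⟩ := isIrrCharacter_one ψ.2
    rw [hm, Complex.natCast_re]
    exact_mod_cast hm0
  by_cases hcase : ∃ φ ∈ l, (φ : Cfsg.IrrCharacter ↥c.N).1 1 ≠ 1
  · obtain ⟨φ, hφ, hφ1⟩ := hcase
    obtain ⟨t, ht, ht1, hpt, hq⟩ := c.nonlin_degree φ hφ1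
    refine ⟨t, ?_, Or.inr ⟨ht1, hpt, hq⟩⟩
    rw [hdeg]
    have h3 : (φ.1 1).re ≤ (l.map (fun ψ : Cfsg.IrrCharacter ↥c.N => (ψ.1 1).re)).sum :=
      list_single_le l (fun ψ => (ψ.1 1).re) (fun ψ _ => le_trans zero_le_one (hnn ψ)) φ hφ
    rw [ht, Complex.natCast_re] at h3
    exact h3
  · have hlin : ∀ φ ∈ l, (φ : Cfsg.IrrCharacter ↥c.N).1 1 = 1 := by
      intro φ hφ
      by_contra h
      exact hcase ⟨φ, hφ, h⟩
    have hlen : (χ.1 1).re = (l.length : ℝ) := by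
      rw [hdeg]
      have h2 : l.map (fun ψ : Cfsg.IrrCharacter ↥c.N => (ψ.1 1).re)
          = l.map (fun _ => (1 : ℝ)) := by
        apply List.map_congr_left
        intro ψ hψ
        rw [hlin ψ hψ, Complex.one_re]
      rw [h2]
      simp
    by_cases hp : p ≤ l.length
    · exact ⟨l.length, hlen.ge, Or.inl hp⟩
    · exfalso
      have hlt : l.length < p := not_le.mp hp
      have htriv : ∀ φ ∈ l, ∀ y : ↥c.N, (φ : Cfsg.IrrCharacter ↥c.N).1 y = 1 := by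
        intro φ hφ
        have hmul : ∀ a b : ↥c.N, φ.1 (a * b) = φ.1 a * φ.1 b := irr_mul_of_one φ (hlin φ hφ)
        have hinvP := c.constituent_inv χ.1 hχc l hl hlt φ hφ
        have hmem : ∀ y : X, y ∈ kerSub c.N φ.1 hmul (hlin φ hφ)
            ↔ ∃ h : y ∈ c.N, φ.1 ⟨y, h⟩ = 1 := fun y => Iff.rfl
        have hM : kerSub c.N φ.1 hmul (hlin φ hφ) = c.N := by
          apply c.gen _
          · intro y hy
            obtain ⟨h, _⟩ := (hmem y).mp hy
            exact h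
          · intro x hx m hm
            obtain ⟨hmN, hm1⟩ := (hmem m).mp hm
            refine (hmem _).mpr ⟨c.nN.conj_mem m hmN x, ?_⟩
            rw [hinvP x hx m hmN]; exact hm1
          · intro y hy x hx
            have hmem' : y⁻¹ * (x * y * x⁻¹) ∈ c.N :=
              c.N.mul_mem (c.N.inv_mem hy) (c.nN.conj_mem y hy x)
            refine (hmem _).mpr ⟨hmem', ?_⟩
            have e : (⟨y⁻¹ * (x * y * x⁻¹), hmem'⟩ : ↥c.N)
                = (⟨y, hy⟩ : ↥c.N)⁻¹ * ⟨x * y * x⁻¹, c.nN.conj_mem y hy x⟩ := rfl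
            rw [e, hmul, hinvP x hx y hy, ← hmul, inv_mul_cancel]
            exact hlin φ hφ
        intro y
        have hy : (y : X) ∈ kerSub c.N φ.1 hmul (hlin φ hφ) := by rw [hM]; exact y.2
        obtain ⟨_, h⟩ := (hmem _).mp hy
        exact h
      have hconst : ∀ y : ↥c.N, χ.1 y = χ.1 1 := by
        intro y
        have h2 : χ.1 y = (l.map (fun ψ : Cfsg.IrrCharacter ↥c.N => ψ.1)).sum y := congrFun hl y
        have h3 : χ.1 1 = (l.map (fun ψ : Cfsg.IrrCharacter ↥c.N => ψ.1)).sum 1 := congrFun hl 1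
        rw [list_sum_fun_apply, List.map_map] at h2 h3
        have h4 : l.map ((fun f : ↥c.N → ℂ => f y) ∘ fun ψ : Cfsg.IrrCharacter ↥c.N => ψ.1)
            = l.map ((fun f : ↥c.N → ℂ => f 1) ∘ fun ψ : Cfsg.IrrCharacter ↥c.N => ψ.1) := by
          apply List.map_congr_left
          intro ψ hψ
          show ψ.1 y = ψ.1 1
          rw [htriv ψ hψ y, htriv ψ hψ 1]
        rw [h4, ← h3] at h2
        exact h2
      apply h1
      obtain ⟨n, ρ, hirr, hρ⟩ := χ.2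
      haveI := hirr
      rw [← hρ]
      apply irr_linear_of_comm n ρ
      have hker : ∀ y ∈ c.N, ρ y = 1 := by
        intro y hy
        apply (char_eq_finrank_iff ρ y).mp
        rw [← Representation.char_one ρ, hρ]
        exact hconst ⟨y, hy⟩
      intro a b
      obtain ⟨y₁, hy₁, x₁, hx₁, rfl⟩ := c.decomp a
      obtain ⟨y₂, hy₂, x₂, hx₂, rfl⟩ := c.decomp b
      rw [map_mul, map_mul, hker y₁ hy₁, hker y₂ hy₂, one_mul, one_mul, ← map_mul, ← map_mul,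
        c.hab x₁ hx₁ x₂ hx₂]

end Deg

end Cfsg.Agent.Lib.helper29.FT
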