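import Mathlib
import Cfsg.Agent.Lib.helper29.ItoB2
import Cfsg.Agent.Lib.helper3.PSolvQuad

set_option autoImplicit false

namespace Cfsg.Agent.Lib.helper29.FT

open scoped ComplexConjugate
open Cfsg.Agent.Lib.helper24

universe u

section General

variable {Y : Type u} [Group Y] [Finite Y]

theorem irr_one_re_ge (ψ : Cfsg.IrrCharacter Y) : (1 : ℝ) ≤ (ψ.1 1).re := by
  obtain ⟨m, hm0, hm⟩ := isIrrCharacter_one ψ.2
  rw [hm, Complex.natCast_re]
  exact_mod_cast hm0

theorem list_deg_sum (l : List (Cfsg.IrrCharacter Y)) :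
    ((l.map (fun ψ : Cfsg.IrrCharacter Y => ψ.1)).sum 1).re
      = (l.map (fun ψ : Cfsg.IrrCharacter Y => (ψ.1 1).re)).sum := by
  have := Fintype.ofFinite Y
  exact list_sum_additive (G := Y) (fun f => (f 1).re) (by simp) (fun f g => by simp) l

theorem list_deg_le (l : List (Cfsg.IrrCharacter Y)) (ψ : Cfsg.IrrCharacter Y) (hψ : ψ ∈ l) :
    (ψ.1 1).re ≤ ((l.map (fun ψ : Cfsg.IrrCharacter Y => ψ.1)).sum 1).re := by
  rw [list_deg_sum]
  exact list_single_le l (fun ψ => (ψ.1 1).re)
    (fun φ _ => le_trans zero_le_one (irr_one_re_ge φ)) ψ hψ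

theorem comm_of_all_linear (l : List (Cfsg.IrrCharacter Y))
    (hlin : ∀ ψ ∈ l, (ψ : Cfsg.IrrCharacter Y).1 1 = 1) (a b : Y) :
    (l.map (fun ψ : Cfsg.IrrCharacter Y => ψ.1)).sum (a * b * a⁻¹ * b⁻¹)
      = (l.map (fun ψ : Cfsg.IrrCharacter Y => ψ.1)).sum 1 := by
  rw [list_sum_fun_apply, list_sum_fun_apply, List.map_map, List.map_map]
  congr 1
  apply List.map_congr_left
  intro ψ hψ
  show ψ.1 (a * b * a⁻¹ * b⁻¹) = ψ.1 1
  have hmul := irr_mul_of_one ψ (hlin ψ hψ)
  have h1 : ψ.1 (a * a⁻¹) = ψ.1 a * ψ.1 a⁻¹ := hmul _ _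
  have h2 : ψ.1 (b * b⁻¹) = ψ.1 b * ψ.1 b⁻¹ := hmul _ _
  rw [mul_inv_cancel, hlin ψ hψ] at h1 h2
  rw [hmul, hmul, hmul, hlin ψ hψ]
  calc ψ.1 a * ψ.1 b * ψ.1 a⁻¹ * ψ.1 b⁻¹ = (ψ.1 a * ψ.1 a⁻¹) * (ψ.1 b * ψ.1 b⁻¹) := by ring
    _ = 1 := by rw [← h1, ← h2, one_mul]

theorem exists_nonlinear (χ : Y → ℂ)
    (hfaith : ∀ g, χ g = χ 1 → g = 1) (l : List (Cfsg.IrrCharacter Y))
    (hl : χ = (l.map (fun ψ : Cfsg.IrrCharacter Y => ψ.1)).sum)
    (hna : ∃ a b : Y, a * b ≠ b * a) : ∃ ψ ∈ l, (ψ : Cfsg.IrrCharacter Y).1 1 ≠ 1 := by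
  by_contra hcon
  have hlin : ∀ ψ ∈ l, (ψ : Cfsg.IrrCharacter Y).1 1 = 1 := by
    intro ψ hψ
    by_contra h
    exact hcon ⟨ψ, hψ, h⟩
  obtain ⟨a, b, hab⟩ := hna
  apply hab
  have h := comm_of_all_linear l hlin a b
  rw [← hl] at h
  have h2 : a * b * a⁻¹ * b⁻¹ = 1 := hfaith _ h
  calc a * b = (a * b * a⁻¹ * b⁻¹) * (b * a) := by group
    _ = b * a := by rw [h2, one_mul]

theorem irr_of_restrict_irr (L : Subgroup Y) (χ : Y → ℂ)
    (hχ : Cfsg.IsCharacter Y χ) (hirr : Cfsg.IsIrrCharacter ↥L (fun y : ↥L => χ y)) :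
    Cfsg.IsIrrCharacter Y χ := by
  classical
  have := Fintype.ofFinite ↥L
  obtain ⟨l, hl⟩ := isCharacter_iff_exists_list.mp hχ
  rcases l with _ | ⟨ψ₁, _ | ⟨ψ₂, rest⟩⟩
  · exfalso
    obtain ⟨m, hm0, hm⟩ := isIrrCharacter_one hirr
    have h0 : χ 1 = 0 := by rw [hl]; simp
    have hm' : χ 1 = (m : ℂ) := hm
    rw [h0] at hm'
    have hm2 : m = 0 := by exact_mod_cast hm'.symm
    omega
  · have h : χ = ψ₁.1 := by rw [hl]; simp
    rw [h]; exact ψ₁.2
  · exfalso
    have hA : Cfsg.IsCharacter ↥L (fun y : ↥L => ψ₁.1 y) :=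
      isCharacter_restrict L (isCharacter_of_isIrrCharacter ψ₁.2)
    have hBX : Cfsg.IsCharacter Y
        ((ψ₂ :: rest).map (fun ψ : Cfsg.IrrCharacter Y => ψ.1)).sum :=
      isCharacter_iff_exists_list.mpr ⟨ψ₂ :: rest, rfl⟩
    have hB : Cfsg.IsCharacter ↥L
        (fun y : ↥L => ((ψ₂ :: rest).map (fun ψ : Cfsg.IrrCharacter Y => ψ.1)).sum y) :=
      isCharacter_restrict L hBX
    have hsum : (fun y : ↥L => χ y) = (fun y : ↥L => ψ₁.1 y)
        + (fun y : ↥L => ((ψ₂ :: rest).map (fun ψ : Cfsg.IrrCharacter Y => ψ.1)).sum y) := by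
      funext y
      rw [hl, List.map_cons, List.sum_cons]
      rfl
    have hA1 : (fun y : ↥L => ψ₁.1 y) 1 ≠ 0 := by
      show ψ₁.1 ((1 : ↥L) : Y) ≠ 0
      obtain ⟨m, hm0, hm⟩ := isIrrCharacter_one ψ₁.2
      rw [Subgroup.coe_one, hm]
      exact_mod_cast hm0.ne'
    have hB1 : (fun y : ↥L => ((ψ₂ :: rest).map (fun ψ : Cfsg.IrrCharacter Y => ψ.1)).sum y) 1
        ≠ 0 := by
      show ((ψ₂ :: rest).map (fun ψ : Cfsg.IrrCharacter Y => ψ.1)).sum ((1 : ↥L) : Y) ≠ 0
      rw [Subgroup.coe_one]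
      intro h0
      have h2 := list_deg_le (ψ₂ :: rest) ψ₂ (List.mem_cons.mpr (Or.inl rfl))
      rw [h0, Complex.zero_re] at h2
      have h3 := irr_one_re_ge ψ₂
      linarith
    obtain ⟨a, ha0, ha⟩ := isCharacter_inner_self_pos hA hA1
    obtain ⟨b, hb0, hb⟩ := isCharacter_inner_self_pos hB hB1
    obtain ⟨c₁, hc₁⟩ := isCharacter_inner_nat hA hB
    obtain ⟨c₂, hc₂⟩ := isCharacter_inner_nat hB hA
    have h1 := isIrrCharacter_inner_self hirr
    rw [hsum, classInner_add_left, classInner_add_right, classInner_add_right, ha, hb, hc₁,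
      hc₂] at h1
    have h2 : a + c₁ + (c₂ + b) = 1 := by exact_mod_cast h1
    omega

end General

theorem le_succ_of_dvd_sq_sub_one {p : ℕ} (hp : p.Prime) (t : ℕ) (ht : 1 < t)
    (h : p ∣ t ^ 2 - 1) : p ≤ t + 1 := by
  obtain ⟨s, rfl⟩ : ∃ s, t = s + 1 := ⟨t - 1, by omega⟩
  have h1 : (s + 1) ^ 2 - 1 = s * (s + 2) := by
    have h2 : (s + 1) ^ 2 = s * (s + 2) + 1 := by ring
    rw [h2, Nat.add_sub_cancel]
  rw [h1] at h
  rcases (Nat.Prime.dvd_mul hp).mp h with h3 | h3
  · have h4 := Nat.le_of_dvd (by omega) h3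
    omega
  · have h4 := Nat.le_of_dvd (by omega) h3
    omega

theorem nonabelian_of_not_normal {X : Type u} [Group X] (Q : Subgroup X) (hQ : ¬ Q.Normal) :
    ∃ a b : X, a * b ≠ b * a := by
  by_contra hcon
  apply hQ
  constructor
  intro n hn g
  have h1 : g * n = n * g := by
    by_contra h
    exact hcon ⟨g, n, h⟩
  rw [h1, mul_inv_cancel_right]
  exact hn

section Main

variable {X : Type u} [Group X] [Finite X] {p : ℕ} [Fact p.Prime]

theorem exists_sylow_of_good (C : Subgroup X) (hgood : AllSylNormal p ↥C) :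
    ∃ R : Sylow p X, ∀ w ∈ C, ∀ k : ℕ, w ^ (p ^ k) = 1 → w ∈ (R : Subgroup X) := by
  obtain ⟨S⟩ : Nonempty (Sylow p ↥C) := inferInstance
  obtain ⟨R, hR⟩ := (S.isPGroup'.map C.subtype).exists_le_sylow
  refine ⟨R, ?_⟩
  intro w hwC k hw
  have hw' : (⟨w, hwC⟩ : ↥C) ^ (p ^ k) = 1 := by
    apply Subtype.ext
    rw [Subgroup.coe_pow, Subgroup.coe_one]
    exact hw
  obtain ⟨S₂, hS₂⟩ := (isPGroup_zpowers (⟨w, hwC⟩ : ↥C) k hw').exists_le_sylow
  have hS : S₂ = S := sylow_eq_of_allNormal hgood S₂ S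
  have h1 : (⟨w, hwC⟩ : ↥C) ∈ (S : Subgroup ↥C) := by
    rw [← hS]
    exact hS₂ (Subgroup.mem_zpowers _)
  exact hR (Subgroup.mem_map.mpr ⟨_, h1, rfl⟩)

theorem sylow_abelian_of_faithful
    (χ : X → ℂ) (hχ : Cfsg.IsCharacter X χ) (hfaith : ∀ g, χ g = χ 1 → g = 1)
    (hdeg : (χ 1).re < p) (P : Sylow p X) :
    ∀ a ∈ (P : Subgroup X), ∀ b ∈ (P : Subgroup X), a * b = b * a := by
  classical
  have hp : p.Prime := Fact.out
  obtain ⟨l, hl⟩ := isCharacter_iff_exists_list.mp (isCharacter_restrict (P : Subgroup X) hχ)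
  have hlin : ∀ ψ ∈ l, (ψ : Cfsg.IrrCharacter ↥(P : Subgroup X)).1 1 = 1 := by
    intro ψ hψ
    obtain ⟨d, hd, hdvd⟩ := irr_degree_dvd_card ψ
    obtain ⟨k, hk⟩ := IsPGroup.iff_card.mp P.isPGroup'
    rw [hk] at hdvd
    obtain ⟨j, _, hj⟩ := (Nat.dvd_prime_pow hp).mp hdvd
    have hle : (ψ.1 1).re ≤ (χ 1).re := by
      have h2 := list_deg_le l ψ hψ
      rw [← hl] at h2
      exact h2
    rw [hd, Complex.natCast_re] at hle
    have hdp : d < p := by exact_mod_cast lt_of_le_of_lt hle hdeg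
    have hj0 : j = 0 := by
      by_contra hj0
      have h3 := Nat.le_self_pow hj0 p
      omega
    rw [hd, hj, hj0, pow_zero, Nat.cast_one]
  intro a ha b hb
  have h := comm_of_all_linear l hlin ⟨a, ha⟩ ⟨b, hb⟩
  rw [← hl] at h
  have h' : χ (a * b * a⁻¹ * b⁻¹) = χ 1 := h
  have h2 : a * b * a⁻¹ * b⁻¹ = 1 := hfaith _ h'
  calc a * b = (a * b * a⁻¹ * b⁻¹) * (b * a) := by group
    _ = b * a := by rw [h2, one_mul]

theorem minbad_core
    (hmin : MinBad p X) (P : Sylow p X) (hP : ¬ (P : Subgroup X).Normal)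
    (χ : X → ℂ) (hχ : Cfsg.IsCharacter X χ) (hfaith : ∀ g, χ g = χ 1 → g = 1)
    (hdeg : (χ 1).re < p) (hc : commutator X ≠ ⊤) :
    ∃ l : List (Cfsg.IrrCharacter X), χ = (l.map (fun ψ : Cfsg.IrrCharacter X => ψ.1)).sum ∧
      ∃ ψ ∈ l, ∃ t : ℕ, (t : ℝ) ≤ (ψ.1 1).re ∧ (ψ.1 1).re ≤ (χ 1).re ∧
        (p ≤ t ∨ (1 < t ∧ p ∣ t ^ 2 - 1 ∧ ∃ q a : ℕ, q.Prime ∧ t = q ^ a)) := by
  classical
  have hab : ∀ Q : Sylow p X, ∀ a ∈ (Q : Subgroup X), ∀ b ∈ (Q : Subgroup X), a * b = b * a :=
    fun Q => sylow_abelian_of_faithful χ hχ hfaith hdeg Q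
  obtain ⟨hNp, hsup⟩ := ml hmin hab P hP hc
  let c : Cfg p X := ⟨P, commutator X, inferInstance, hmin, hP, hab P, hNp, hsup⟩
  have hna : ∃ a b : X, a * b ≠ b * a := nonabelian_of_not_normal _ hP
  obtain ⟨l, hl⟩ := isCharacter_iff_exists_list.mp hχ
  obtain ⟨ψ, hψ, hψ1⟩ := exists_nonlinear χ hfaith l hl hna
  obtain ⟨t, ht, hcase⟩ := c.ito_min ψ hψ1
  refine ⟨l, hl, ψ, hψ, t, ht, ?_, hcase⟩
  have h2 := list_deg_le l ψ hψ
  rw [← hl] at h2
  exact h2

theorem comm_ne_top_of_psolv
    (hsolv : Cfsg.IsPSolvable p X) (hmin : MinBad p X) (P : Sylow p X)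
    (hP : ¬ (P : Subgroup X).Normal) : commutator X ≠ ⊤ := by
  have hp : p.Prime := Fact.out
  obtain ⟨n, H, h0, hlast, hmono, hnorm, hstep⟩ := hsolv
  have hbt : (⊥ : Subgroup X) ≠ ⊤ := by
    intro h
    apply hP
    have hPt : (P : Subgroup X) = ⊤ := by
      rw [eq_top_iff, ← h]; exact bot_le
    rw [hPt]
    infer_instance
  have key : ∃ i : Fin n, H i.castSucc ≠ ⊤ ∧ H i.succ = ⊤ := by
    by_contra hcon
    have hall : ∀ j : ℕ, ∀ h : j < n + 1, H ⟨j, h⟩ ≠ ⊤ := by
      intro j
      induction j with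
      | zero =>
        intro h
        have e : (⟨0, h⟩ : Fin (n + 1)) = 0 := rfl
        rw [e, h0]; exact hbt
      | succ j ih =>
        intro h heq
        apply hcon
        exact ⟨⟨j, by omega⟩, ih (by omega), heq⟩
    exact hall n (Nat.lt_succ_self n) hlast
  obtain ⟨i, hi1, hi2⟩ := key
  have hstepi := hstep i
  rw [hi2, Subgroup.relIndex_top_right] at hstepi
  haveI : (H i.castSucc).Normal := hnorm _
  rcases hstepi with ⟨m, hm⟩ | hcop
  · intro hcomm
    have hcard : Nat.card (X ⧸ H i.castSucc) = p ^ m := by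
      rw [← Subgroup.index_eq_card]; exact hm
    haveI : Group.IsNilpotent (X ⧸ H i.castSucc) := (IsPGroup.of_card hcard).isNilpotent
    haveI : Nontrivial (X ⧸ H i.castSucc) := by
      rw [← Finite.one_lt_card_iff_nontrivial, hcard]
      have hm0 : m ≠ 0 := by
        intro hm0
        rw [hm0, pow_zero] at hm
        exact hi1 (Subgroup.index_eq_one.mp hm)
      exact Nat.one_lt_pow hm0 hp.one_lt
    have h1 := Group.IsSolvable.commutator_lt_top_of_nontrivial (X ⧸ H i.castSucc)
    apply h1.ne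
    have hsurj : Function.Surjective (QuotientGroup.mk' (H i.castSucc)) :=
      QuotientGroup.mk'_surjective _
    have h2 : (commutator X).map (QuotientGroup.mk' (H i.castSucc))
        = commutator (X ⧸ H i.castSucc) := by
      rw [commutator_def, commutator_def, Subgroup.map_commutator,
        Subgroup.map_top_of_surjective _ hsurj]
    rw [← h2, hcomm, Subgroup.map_top_of_surjective _ hsurj]
  · exfalso
    apply hi1
    apply normal_closure_top hmin P hP _ (hnorm _)
    intro x hx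
    obtain ⟨k, hk⟩ := P.isPGroup' ⟨x, hx⟩
    have hk' : x ^ (p ^ k) = 1 := by
      have h5 := congrArg Subtype.val hk
      simpa using h5
    have h1 : ((x : X) : X ⧸ H i.castSucc) ^ (p ^ k) = 1 := by
      rw [← QuotientGroup.mk_pow, hk', QuotientGroup.mk_one]
    have h2 : ((x : X) : X ⧸ H i.castSucc) ^ (H i.castSucc).index = 1 := by
      rw [Subgroup.index_eq_card]; exact pow_card_eq_one'
    have hnd : ¬ p ∣ (H i.castSucc).index := (Nat.Prime.coprime_iff_not_dvd hp).mp hcop.symm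
    have h3 := eq_one_of_pow_of_coprime k h1 _ h2 hnd
    exact (QuotientGroup.eq_one_iff x).mp h3

theorem ito_main (p : ℕ) [Fact p.Prime] (n : ℕ) :
    ∀ (k : ℕ) (X : Type u) [Group X] [Finite X],
    Nat.card X = k → ∀ (χ : X → ℂ), Cfsg.IsCharacter X χ → (∀ g, χ g = χ 1 → g = 1) →
    χ 1 = (n : ℂ) →
    ((n + 1) ^ 2 ≤ p ∨ (n + 1 < p ∧
      ∀ K : Subgroup X, ¬ p ^ 2 ∣ Nat.card K → AllSylNormal p ↥K)) →
    AllSylNormal p X := by
  intro k
  induction k using Nat.strong_induction_on with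
  | _ k ih =>
    intro X _ _ hk χ hχ hfaith hdeg h
    classical
    have hp : p.Prime := Fact.out
    by_contra hbad
    obtain ⟨P, hP⟩ := not_forall.mp hbad
    have hnp : n + 1 < p := by
      rcases h with h | h
      · have h2 := hp.two_le
        nlinarith
      · exact h.1
    have hdeg' : (χ 1).re = (n : ℝ) := by rw [hdeg, Complex.natCast_re]
    have hmin : MinBad p X := by
      intro L hL
      have hlt : Nat.card ↥L < k := by
        rw [← hk]
        exact lt_of_le_of_ne (Subgroup.card_le_card_group L)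
          (fun h => hL ((Subgroup.card_eq_iff_eq_top L).mp h))
      refine ih (Nat.card ↥L) hlt ↥L rfl (fun y : ↥L => χ y) (isCharacter_restrict L hχ) ?_ ?_ ?_
      · intro g hg
        exact Subtype.ext (hfaith (g : X) hg)
      · exact hdeg
      · rcases h with h | h
        · exact Or.inl h
        · refine Or.inr ⟨h.1, ?_⟩
          intro K hK
          have hcard : Nat.card ↥(K.map L.subtype) = Nat.card ↥K :=
            (Nat.card_congr (K.equivMapOfInjective L.subtype L.subtype_injective).toEquiv).symm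
          have h2 := h.2 (K.map L.subtype) (by rw [hcard]; exact hK)
          exact allSylNormal_of_equiv
            (K.equivMapOfInjective L.subtype L.subtype_injective).symm h2
    have hdegp : (χ 1).re < p := by
      rw [hdeg']; exact_mod_cast (by omega : n < p)
    have hab : ∀ Q : Sylow p X, ∀ a ∈ (Q : Subgroup X), ∀ b ∈ (Q : Subgroup X),
        a * b = b * a := fun Q => sylow_abelian_of_faithful χ hχ hfaith hdegp Q
    by_cases hZ : (P : Subgroup X) ⊓ Subgroup.center X = ⊥
    · have := Fintype.ofFinite X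
      have := Fintype.ofFinite ↥(P : Subgroup X)
      have hmap : ∀ a : X, (P : Subgroup X).map (MulAut.conj a).toMonoidHom
          = ((a • P : Sylow p X) : Subgroup X) := by
        intro a
        ext x
        rw [mem_smul_sylow, Subgroup.mem_map]
        simp only [MulEquiv.coe_toMonoidHom, MulAut.conj_apply]
      have hone : ∀ g : X, g ∉ Subgroup.center X → ∀ a b : X,
          Subgroup.centralizer ({g} : Set X)
            ⊓ (P : Subgroup X).map (MulAut.conj a).toMonoidHom ≠ ⊥ →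
          Subgroup.centralizer ({g} : Set X)
            ⊓ (P : Subgroup X).map (MulAut.conj b).toMonoidHom ≠ ⊥ →
          (P : Subgroup X).map (MulAut.conj a).toMonoidHom
            = (P : Subgroup X).map (MulAut.conj b).toMonoidHom := by
        intro g hg a b ha hb
        have hC : Subgroup.centralizer ({g} : Set X) ≠ ⊤ := by
          intro h
          apply hg
          rw [Subgroup.mem_center_iff]
          intro y
          have hy : y ∈ Subgroup.centralizer ({g} : Set X) := by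
            rw [h]; exact Subgroup.mem_top y
          exact (Subgroup.mem_centralizer_iff.mp hy g rfl).symm
        obtain ⟨R, hR⟩ := exists_sylow_of_good _ (hmin _ hC)
        have hkey : ∀ a : X, Subgroup.centralizer ({g} : Set X)
            ⊓ (P : Subgroup X).map (MulAut.conj a).toMonoidHom ≠ ⊥ → R = a • P := by
          intro a ha
          rw [hmap a] at ha
          obtain ⟨u, hu, hu1⟩ : ∃ u ∈ Subgroup.centralizer ({g} : Set X)
              ⊓ ((a • P : Sylow p X) : Subgroup X), u ≠ 1 := by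
            by_contra hcon
            apply ha
            rw [Subgroup.eq_bot_iff_forall]
            intro x hx
            by_contra hx1
            exact hcon ⟨x, hx, hx1⟩
          obtain ⟨huC, huP⟩ := Subgroup.mem_inf.mp hu
          obtain ⟨k, hk⟩ := (a • P).isPGroup' ⟨u, huP⟩
          have hk' : u ^ (p ^ k) = 1 := by
            have h5 := congrArg Subtype.val hk
            simpa using h5
          have huR := hR u huC k hk'
          by_contra hne
          have huc := syl_inter_le_center hmin hab R (a • P) hne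
            (Subgroup.mem_inf.mpr ⟨huR, huP⟩)
          obtain ⟨s, hs, hsu⟩ := (mem_smul_sylow a P u).mp huP
          have hsu' : s = u := by
            have h1 : a * s = u * a := by rw [← hsu]; group
            have h2 : a * u = u * a := Subgroup.mem_center_iff.mp huc a
            rw [← h2] at h1
            exact mul_left_cancel h1
          have hs1 : u = 1 := by
            have h3 : u ∈ (P : Subgroup X) ⊓ Subgroup.center X :=
              Subgroup.mem_inf.mpr ⟨hsu' ▸ hs, huc⟩
            rw [hZ] at h3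
            exact Subgroup.mem_bot.mp h3
          exact hu1 hs1
        rw [hmap a, hmap b, ← hkey a ha, ← hkey b hb]
      obtain ⟨l, hl⟩ := isCharacter_iff_exists_list.mp hχ
      have hna : ∃ a b : X, a * b ≠ b * a := nonabelian_of_not_normal _ hP
      obtain ⟨ψ, hψ, hψ1⟩ := exists_nonlinear χ hfaith l hl hna
      have hft := ft_part2 (P : Subgroup X) (hab P) hZ hone ψ.1 ψ.2 hψ1
        (fun M hM hPM => normal_closure_top hmin P hP M hM hPM)
      have hψle : (ψ.1 1).re ≤ (n : ℝ) := by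
        rw [← hdeg']
        have h2 := list_deg_le l ψ hψ
        rw [← hl] at h2
        exact h2
      have hψ0 : (0 : ℝ) ≤ (ψ.1 1).re := le_trans zero_le_one (irr_one_re_ge ψ)
      have hcardlt : Nat.card ↥(P : Subgroup X) < (n + 1) ^ 2 := by
        have h3 : (Nat.card ↥(P : Subgroup X) : ℝ) < ((n : ℝ) + 1) ^ 2 := by nlinarith
        exact_mod_cast h3
      obtain ⟨e, he⟩ := IsPGroup.iff_card.mp P.isPGroup'
      have he0 : e ≠ 0 := by
        intro he0
        rw [he0, pow_zero] at he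
        apply hP
        have hPb : (P : Subgroup X) = ⊥ := Subgroup.card_eq_one.mp he
        rw [hPb]; infer_instance
      rcases h with h | h
      · have h4 : p ≤ p ^ e := Nat.le_self_pow he0 p
        omega
      · have h5 : (n + 1) ^ 2 < p ^ 2 := Nat.pow_lt_pow_left h.1 (by norm_num)
        have h6 : ¬ p ^ 2 ∣ Nat.card X := by
          intro hd
          have hX0 : Nat.card X ≠ 0 := Nat.card_pos.ne'
          have h7 := (Nat.Prime.pow_dvd_iff_le_factorization hp hX0).mp hd
          have h8 := Sylow.card_eq_multiplicity P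
          have h9 : p ^ 2 ≤ p ^ (Nat.card X).factorization p := Nat.pow_le_pow_right hp.pos h7
          omega
        have h7 : AllSylNormal p ↥(⊤ : Subgroup X) :=
          h.2 ⊤ (by rw [Subgroup.card_top]; exact h6)
        exact hP (allSylNormal_of_equiv Subgroup.topEquiv h7 P)
    · have hc : commutator X ≠ ⊤ := by
        intro hc
        apply hZ
        rw [Subgroup.eq_bot_iff_forall]
        intro z hz
        obtain ⟨hzP, hzc⟩ := Subgroup.mem_inf.mp hz
        exact center_inter_commutator P (hab P) z hzP hzc (by rw [hc]; exact Subgroup.mem_top z)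
      obtain ⟨l, hl, ψ, hψ, t, ht, hψle, hcase⟩ := minbad_core hmin P hP χ hχ hfaith hdegp hc
      have htn : t ≤ n := by
        have h3 : (t : ℝ) ≤ (n : ℝ) := by rw [← hdeg']; exact le_trans ht hψle
        exact_mod_cast h3
      rcases hcase with h4 | ⟨ht1, hpt, _⟩
      · omega
      · have h5 := le_succ_of_dvd_sq_sub_one hp t ht1 hpt
        omega

theorem psolv_main (p : ℕ) [Fact p.Prime] (n : ℕ) :
    ∀ (k : ℕ) (X : Type u) [Group X] [Finite X],
    Nat.card X = k → ∀ (χ : X → ℂ), Cfsg.IsCharacter X χ → (∀ g, χ g = χ 1 → g = 1) →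
    χ 1 = (n : ℂ) → Cfsg.IsPSolvable p X → n + 1 ≤ p → ¬ AllSylNormal p X →
    n + 1 = p ∧ (∃ j : ℕ, n = 2 ^ j) ∧ Cfsg.IsIrrCharacter X χ := by
  intro k
  induction k using Nat.strong_induction_on with
  | _ k ih =>
    intro X _ _ hk χ hχ hfaith hdeg hsolv hnp hbad
    classical
    have hp : p.Prime := Fact.out
    have hdeg' : (χ 1).re = (n : ℝ) := by rw [hdeg, Complex.natCast_re]
    by_cases hmin : MinBad p X
    · obtain ⟨P, hP⟩ := not_forall.mp hbad
      have hdegp : (χ 1).re < p := by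
        rw [hdeg']; exact_mod_cast (by omega : n < p)
      have hc : commutator X ≠ ⊤ := comm_ne_top_of_psolv hsolv hmin P hP
      obtain ⟨l, hl, ψ, hψ, t, ht, hψle, hcase⟩ := minbad_core hmin P hP χ hχ hfaith hdegp hc
      have htn : t ≤ n := by
        have h3 : (t : ℝ) ≤ (n : ℝ) := by rw [← hdeg']; exact le_trans ht hψle
        exact_mod_cast h3
      rcases hcase with h4 | ⟨ht1, hpt, q, a, hq, hta⟩
      · omega
      · have h5 := le_succ_of_dvd_sq_sub_one hp t ht1 hpt
        have htn' : t = n := by omega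
        have hpn : n + 1 = p := by omega
        refine ⟨hpn, ?_, ?_⟩
        · rcases Nat.Prime.eq_two_or_odd' hq with h2 | hodd
          · exact ⟨a, by rw [← htn', hta, h2]⟩
          · exfalso
            have h6 : Odd (q ^ a) := hodd.pow
            have h7 : Even (q ^ a + 1) := h6.add_one
            rw [← hta, htn', hpn] at h7
            have h8 : p = 2 := (Nat.Prime.even_iff hp).mp h7
            omega
        · have hψeq : (ψ.1 1).re = (χ 1).re := by
            apply le_antisymm hψle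
            rw [hdeg', ← htn']; exact ht
          have h2 := list_deg_sum l
          rw [← hl] at h2
          have hperm := List.perm_cons_erase hψ
          have h3 : (l.map (fun ψ : Cfsg.IrrCharacter X => (ψ.1 1).re)).sum
              = (ψ.1 1).re
                + ((l.erase ψ).map (fun ψ : Cfsg.IrrCharacter X => (ψ.1 1).re)).sum := by
            rw [(hperm.map _).sum_eq, List.map_cons, List.sum_cons]
          have herase : l.erase ψ = [] := by
            by_contra hne
            obtain ⟨φ, hφ⟩ := List.exists_mem_of_ne_nil _ hne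
            have h4 : (φ.1 1).re
                ≤ ((l.erase ψ).map (fun ψ : Cfsg.IrrCharacter X => (ψ.1 1).re)).sum :=
              list_single_le (l.erase ψ) (fun ψ => (ψ.1 1).re)
                (fun w _ => le_trans zero_le_one (irr_one_re_ge w)) φ hφ
            have h5 := irr_one_re_ge φ
            linarith
          have hχeq : χ = ψ.1 := by
            rw [hl, (hperm.map _).sum_eq, herase]
            simp
          rw [hχeq]; exact ψ.2
    · unfold MinBad at hmin
      obtain ⟨L, hL⟩ := not_forall.mp hmin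
      obtain ⟨hLne, hLbad⟩ := Classical.not_imp.mp hL
      have hlt : Nat.card ↥L < k := by
        rw [← hk]
        exact lt_of_le_of_ne (Subgroup.card_le_card_group L)
          (fun h => hLne ((Subgroup.card_eq_iff_eq_top L).mp h))
      obtain ⟨h1, h2, h3⟩ := ih (Nat.card ↥L) hlt ↥L rfl (fun y : ↥L => χ y)
        (isCharacter_restrict L hχ) (fun g hg => Subtype.ext (hfaith (g : X) hg)) hdeg
        (Cfsg.Agent.Lib.helper3.isPSolvable_subgroup L hsolv) hnp hLbad
      exact ⟨h1, h2, irr_of_restrict_irr L χ hχ h3⟩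

end Main

end Cfsg.Agent.Lib.helper29.FT
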