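import Mathlib

set_option autoImplicit false

namespace Cfsg.Agent.Lib.helper29

theorem card_sylow_of_eq_pow_mul {G : Type*} [Group G] [Finite G] {p k m : ℕ} [Fact p.Prime]
    (hG : Nat.card G = p ^ k * m) (hpm : ¬ p ∣ m) (P : Sylow p G) :
    Nat.card (P : Subgroup G) = p ^ k := by
  have hp : p.Prime := Fact.out
  have hm : m ≠ 0 := by
    rintro rfl
    exact hpm (dvd_zero p)
  rw [Sylow.card_eq_multiplicity, hG, Nat.factorization_mul (pow_ne_zero k hp.pos.ne') hm,
    Finsupp.add_apply, Nat.factorization_pow, Finsupp.smul_apply, hp.factorization_self,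
    Nat.factorization_eq_zero_of_not_dvd hpm]
  simp

/-- A finite simple group embeds in the symmetric group on the cosets of any proper subgroup. -/
theorem card_dvd_factorial_index_of_simple {G : Type*} [Group G] [Finite G] [IsSimpleGroup G]
    (N : Subgroup G) (hN : N ≠ ⊤) : Nat.card G ∣ (N.index).factorial := by
  have hinj : Function.Injective (MulAction.toPermHom G (G ⧸ N)) := by
    rw [← MonoidHom.ker_eq_bot_iff]
    rcases (MulAction.toPermHom G (G ⧸ N)).normal_ker.eq_bot_or_eq_top with h | h
    · exact h
    · exfalso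
      apply hN
      rw [← Subgroup.normalCore_eq_ker] at h
      exact top_le_iff.mp (h ▸ Subgroup.normalCore_le N)
  have h1 := Subgroup.card_dvd_of_injective _ hinj
  rw [Nat.card_perm, ← Subgroup.index_eq_card] at h1
  exact h1

theorem sylow_normal_of_card_eq_one {G : Type*} [Group G] [Finite G] {p : ℕ} [Fact p.Prime]
    (P : Sylow p G) (hn : Nat.card (Sylow p G) = 1) : (P : Subgroup G).Normal := by
  have h0 : Nat.card (Sylow p G) = (Subgroup.normalizer ((P : Subgroup G) : Set G)).index :=
    Sylow.card_eq_index_normalizer P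
  rw [hn] at h0
  exact Subgroup.normalizer_eq_top_iff.mp (Subgroup.index_eq_one.mp h0.symm)

end Cfsg.Agent.Lib.helper29
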