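import Mathlib
import Cfsg.Agent.Lib.helper29.SylowEmbed
import Cfsg.Agent.Lib.helper29.SimpleIndex

set_option autoImplicit false

namespace Cfsg.Agent.Lib.helper29

theorem isCyclic_of_simple_pgroup {G : Type*} [Group G] [Finite G] [IsSimpleGroup G] {p : ℕ}
    [Fact p.Prime] (h : IsPGroup p G) : IsCyclic G := by
  haveI := h.center_nontrivial
  have hc : Subgroup.center G = ⊤ := by
    rcases (inferInstance : (Subgroup.center G).Normal).eq_bot_or_eq_top with h1 | h1
    · exact absurd h1 ((Subgroup.nontrivial_iff_ne_bot _).mp inferInstance)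
    · exact h1
  have hcomm : ∀ a b : G, a * b = b * a := by
    intro a b
    have ha : a ∈ Subgroup.center G := by rw [hc]; trivial
    exact (Subgroup.mem_center_iff.mp ha b).symm
  obtain ⟨g, hg⟩ := exists_ne (1 : G)
  have hn : (Subgroup.zpowers g).Normal := by
    refine ⟨fun n hn x => ?_⟩
    rw [hcomm x n, mul_inv_cancel_right]
    exact hn
  rcases hn.eq_bot_or_eq_top with h1 | h1
  · exact absurd (Subgroup.zpowers_eq_bot.mp h1) hg
  · exact isCyclic_iff_exists_zpowers_eq_top.mpr ⟨g, h1⟩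

theorem sylow_card_ne_one_of_simple_not_cyclic {G : Type*} [Group G] [Finite G] [IsSimpleGroup G]
    (hG : ¬ IsCyclic G) (p : ℕ) [Fact p.Prime] (hp : p ∣ Nat.card G) :
    Nat.card (Sylow p G) ≠ 1 := by
  intro h1
  obtain ⟨P⟩ : Nonempty (Sylow p G) := inferInstance
  have hnorm := sylow_normal_of_card_eq_one P h1
  have hdvd := P.dvd_card_of_dvd_card hp
  rcases hnorm.eq_bot_or_eq_top with h | h
  · rw [h, Subgroup.card_bot] at hdvd
    exact (Fact.out : p.Prime).one_lt.ne' (Nat.dvd_one.mp hdvd)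
  · apply hG
    have hcard : Nat.card G = p ^ (Nat.card G).factorization p := by
      rw [← Sylow.card_eq_multiplicity P, h, Subgroup.card_top]
    exact isCyclic_of_simple_pgroup (IsPGroup.of_card hcard)

theorem sylow_constraints {G : Type*} [Group G] [Finite G] [IsSimpleGroup G]
    (hG : ¬ IsCyclic G) (p : ℕ) (hp : p.Prime) (hpd : p ∣ Nat.card G) :
    ∃ d ≤ Nat.card G, d ∣ Nat.card G ∧ d % p = 1 ∧ d ≠ 1 ∧ Nat.card G ∣ d.factorial := by
  haveI : Fact p.Prime := ⟨hp⟩
  obtain ⟨P⟩ : Nonempty (Sylow p G) := inferInstance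
  have h1 := sylow_card_ne_one_of_simple_not_cyclic hG p hpd
  have hdvd : Nat.card (Sylow p G) ∣ Nat.card G :=
    P.card_dvd_index.trans (Subgroup.index_dvd_card _)
  have hmod : Nat.card (Sylow p G) % p = 1 := by
    have h2 : Nat.card (Sylow p G) % p = 1 % p := card_sylow_modEq_one p G
    rw [h2, Nat.mod_eq_of_lt hp.one_lt]
  have hpos : 0 < Nat.card (Sylow p G) := Nat.card_pos
  have hinj := sylow_action_injective (G := G) p (by omega)
  have h3 := Subgroup.card_dvd_of_injective _ hinj
  rw [Nat.card_perm] at h3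
  exact ⟨_, Nat.le_of_dvd Nat.card_pos hdvd, hdvd, hmod, h1, h3⟩

theorem card_eq_two_of_two_mul_odd {G : Type*} [Group G] [Finite G] [IsSimpleGroup G] (m : ℕ)
    (hm : Odd m) (hG : Nat.card G = 2 * m) : Nat.card G = 2 := by
  classical
  letI : Fintype G := Fintype.ofFinite G
  haveI : Fact (Nat.Prime 2) := ⟨Nat.prime_two⟩
  obtain ⟨t, ht⟩ := exists_prime_orderOf_dvd_card' (G := G) 2 (by rw [hG]; exact dvd_mul_right 2 m)
  obtain ⟨σ, hσ⟩ : ∃ σ : Equiv.Perm G, σ = MulAction.toPermHom G G t := ⟨_, rfl⟩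
  have hσapp : ∀ g : G, σ g = t * g := by
    intro g; rw [hσ]; rfl
  have ht1 : t ≠ 1 := by
    rintro rfl
    rw [orderOf_one] at ht
    omega
  have hσ2 : σ ^ 2 = 1 := by
    rw [hσ, ← map_pow, ← ht, pow_orderOf_eq_one, map_one]
  have hσ1 : σ ≠ 1 := by
    intro h
    have h1 := hσapp 1
    rw [h, Equiv.Perm.one_apply, mul_one] at h1
    exact ht1 h1.symm
  have hord : orderOf σ = 2 := orderOf_eq_prime hσ2 hσ1
  obtain ⟨n, hn⟩ := Equiv.Perm.cycleType_prime_order (σ := σ) (by rw [hord]; exact Nat.prime_two)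
  rw [hord] at hn
  have hsupp : σ.support = Finset.univ := by
    apply Finset.eq_univ_of_forall
    intro g
    rw [Equiv.Perm.mem_support, hσapp]
    intro h
    exact ht1 (mul_eq_right.mp h)
  have hsum := Equiv.Perm.sum_cycleType σ
  rw [hn, Multiset.sum_replicate, hsupp, Finset.card_univ, ← Nat.card_eq_fintype_card, hG,
    smul_eq_mul] at hsum
  have hnm : n + 1 = m := by omega
  have hsign : Equiv.Perm.sign σ = -1 := by
    rw [Equiv.Perm.sign_of_cycleType, hn, Multiset.sum_replicate, Multiset.card_replicate,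
      smul_eq_mul, hnm]
    have h3 : Odd (m * 2 + m) := by
      obtain ⟨k, hk⟩ := hm
      exact ⟨3 * k + 1, by omega⟩
    exact h3.neg_one_pow
  have hker : (Equiv.Perm.sign.comp (MulAction.toPermHom G G)).ker = ⊥ := by
    rcases ((Equiv.Perm.sign.comp (MulAction.toPermHom G G)).normal_ker).eq_bot_or_eq_top with
      h | h
    · exact h
    · exfalso
      have h4 : t ∈ (Equiv.Perm.sign.comp (MulAction.toPermHom G G)).ker := by rw [h]; trivial
      rw [MonoidHom.mem_ker, MonoidHom.comp_apply, ← hσ, hsign] at h4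
      exact absurd h4 (by decide)
  have hinj := (MonoidHom.ker_eq_bot_iff _).mp hker
  have h5 := Nat.card_le_card_of_injective _ hinj
  have h6 : Nat.card ℤˣ = 2 := by
    rw [Nat.card_eq_fintype_card]; rfl
  obtain ⟨k, hk⟩ := hm
  omega

theorem card_orderOf_eq_prime {G : Type*} [Group G] [Finite G] (p : ℕ) [Fact p.Prime]
    (hQcard : ∀ Q : Sylow p G, Nat.card (Q : Subgroup G) = p) :
    Nat.card {g : G // orderOf g = p} = Nat.card (Sylow p G) * (p - 1) := by
  classical
  have hp : p.Prime := Fact.out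
  have hF : ∀ x : {g : G // orderOf g = p}, ∃ Q : Sylow p G,
      (Q : Subgroup G) = Subgroup.zpowers x.1 := by
    intro x
    obtain ⟨Q, hQ⟩ := (IsPGroup.of_card (n := 1) (by rw [Nat.card_zpowers, x.2, pow_one]) :
      IsPGroup p (Subgroup.zpowers x.1)).exists_le_sylow
    exact ⟨Q, (Subgroup.eq_of_le_of_card_ge hQ (by rw [hQcard, Nat.card_zpowers, x.2])).symm⟩
  choose F hFspec using hF
  have hfiber : ∀ Q : Sylow p G,
      Nat.card {x : {g : G // orderOf g = p} // F x = Q} = p - 1 := by
    intro Q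
    have h0 : Nat.card {x : {g : G // orderOf g = p} // F x = Q} =
        Nat.card ↥(((Q : Subgroup G) : Set G) \ {1}) := by
      apply Nat.card_congr
      refine Equiv.ofBijective (fun x => ⟨x.1.1, ?_⟩) ⟨?_, ?_⟩
      · constructor
        · have h1 := hFspec x.1
          rw [x.2] at h1
          rw [SetLike.mem_coe, h1]
          exact Subgroup.mem_zpowers _
        · intro h1
          have h2 := x.1.2
          rw [Set.mem_singleton_iff.mp h1, orderOf_one] at h2
          exact hp.one_lt.ne h2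
      · intro x y hxy
        apply Subtype.ext
        apply Subtype.ext
        have h9 := congrArg Subtype.val hxy
        exact h9
      · rintro ⟨g, hgQ, hg1⟩
        have hord : orderOf g = p := by
          have h1 : orderOf g ∣ p := by
            rw [← hQcard Q, ← Subgroup.orderOf_mk g hgQ]
            exact orderOf_dvd_natCard _
          rcases (Nat.dvd_prime hp).mp h1 with h | h
          · exfalso
            exact hg1 (Set.mem_singleton_iff.mpr (orderOf_eq_one_iff.mp h))
          · exact h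
        refine ⟨⟨⟨g, hord⟩, ?_⟩, rfl⟩
        apply Sylow.ext
        rw [hFspec]
        exact Subgroup.eq_of_le_of_card_ge (Subgroup.zpowers_le.mpr hgQ)
          (by rw [hQcard, Nat.card_zpowers, hord])
    rw [h0, Nat.card_coe_set_eq, Set.ncard_diff_singleton_of_mem (Subgroup.one_mem _),
      ← Nat.card_coe_set_eq]
    have h5 : Nat.card ↥((Q : Subgroup G) : Set G) = p := hQcard Q
    rw [h5]
  letI : Fintype (Sylow p G) := Fintype.ofFinite _
  rw [← Nat.card_congr (Equiv.sigmaFiberEquiv F), Nat.card_sigma]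
  simp only [hfiber, Finset.sum_const, Finset.card_univ, smul_eq_mul]
  rw [Nat.card_eq_fintype_card]

set_option maxRecDepth 100000 in
theorem dec100 : ∀ n ∈ Finset.range 101, 2 ≤ n →
    (∀ p ∈ Finset.range (n + 1), p ∣ n → p.Prime →
      ∃ d ∈ Finset.range (n + 1), d ∣ n ∧ d % p = 1 ∧ d ≠ 1 ∧ n ∣ d.factorial) →
    n = 30 ∨ n = 56 ∨ n = 60 ∨ n = 90 := by
  decide +kernel

theorem not_simple_56 {G : Type*} [Group G] [Finite G] [IsSimpleGroup G] (hG : ¬ IsCyclic G) :
    Nat.card G ≠ 56 := by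
  intro h56
  haveI : Fact (Nat.Prime 7) := ⟨by norm_num⟩
  haveI : Fact (Nat.Prime 2) := ⟨Nat.prime_two⟩
  have h7card : ∀ Q : Sylow 7 G, Nat.card (Q : Subgroup G) = 7 := fun Q =>
    card_sylow_of_eq_mul (m := 8) (by rw [h56]) (by norm_num) Q
  have h2card : ∀ Q : Sylow 2 G, Nat.card (Q : Subgroup G) = 8 := fun Q => by
    have h0 := card_sylow_of_eq_pow_mul (p := 2) (k := 3) (m := 7) (by rw [h56]; norm_num)
      (by norm_num) Q
    rw [h0]; norm_num
  obtain ⟨P⟩ : Nonempty (Sylow 7 G) := inferInstance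
  have hn7 : Nat.card (Sylow 7 G) = 8 := by
    have h1 := sylow_card_ne_one_of_simple_not_cyclic hG 7 (by rw [h56]; norm_num)
    have hmod : Nat.card (Sylow 7 G) % 7 = 1 := card_sylow_modEq_one 7 G
    have hdvd := P.card_dvd_index
    have hidx : (P : Subgroup G).index = 8 := by
      have h0 := Subgroup.card_mul_index (P : Subgroup G)
      rw [h7card, h56] at h0
      omega
    rw [hidx] at hdvd
    have hle := Nat.le_of_dvd (by norm_num) hdvd
    have key : ∀ n ≤ 8, n ∣ 8 → n % 7 = 1 → n ≠ 1 → n = 8 := by decide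
    exact key _ hle hdvd hmod h1
  have hX := card_orderOf_eq_prime 7 h7card
  rw [hn7] at hX
  have hsub : ∀ T : Sylow 2 G, ((T : Subgroup G) : Set G) = {g : G | orderOf g = 7}ᶜ := by
    intro T
    apply Set.eq_of_subset_of_ncard_le _ _ (Set.toFinite _)
    · intro g hg h7
      have h1 : orderOf g ∣ 8 := by
        rw [← h2card T, ← Subgroup.orderOf_mk g hg]
        exact orderOf_dvd_natCard _
      rw [Set.mem_setOf_eq] at h7
      rw [h7] at h1
      norm_num at h1
    · rw [Set.ncard_compl, h56, ← Nat.card_coe_set_eq]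
      have h2 : Nat.card ↥{g : G | orderOf g = 7} = 48 := hX
      rw [h2, ← Nat.card_coe_set_eq]
      have h3 : Nat.card ↥((T : Subgroup G) : Set G) = 8 := h2card T
      rw [h3]
  apply sylow_card_ne_one_of_simple_not_cyclic hG 2 (by rw [h56]; norm_num)
  rw [Nat.card_eq_one_iff_unique]
  obtain ⟨T₀⟩ : Nonempty (Sylow 2 G) := inferInstance
  refine ⟨⟨fun T₁ T₂ => ?_⟩, ⟨T₀⟩⟩
  apply Sylow.ext
  apply SetLike.coe_injective
  rw [hsub T₁, hsub T₂]

theorem simple_le_100 {G : Type*} [Group G] [Finite G] [IsSimpleGroup G]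
    (hG : ¬ IsCyclic G) (h : Nat.card G ≤ 100) : Nat.card G = 60 := by
  have h2 : 2 ≤ Nat.card G := Finite.one_lt_card
  have hkey := dec100 (Nat.card G) (Finset.mem_range.mpr (by omega)) h2 (by
    intro p _ hpd hp
    obtain ⟨d, hd, h1, h2, h3, h4⟩ := sylow_constraints hG p hp hpd
    exact ⟨d, Finset.mem_range.mpr (by omega), h1, h2, h3, h4⟩)
  rcases hkey with h30 | h56 | h60 | h90
  · have h3 := card_eq_two_of_two_mul_odd (G := G) 15 (by decide) (by rw [h30])
    omega
  · exact absurd h56 (not_simple_56 hG)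
  · exact h60
  · have h3 := card_eq_two_of_two_mul_odd (G := G) 45 (by decide) (by rw [h90])
    omega

end Cfsg.Agent.Lib.helper29
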